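import Cfsg.Agent.Lib.Chev.RD

/-! Poincaré sums over stabilisers in the Weyl group, through a chain of root stabilisers. -/

set_option autoImplicit false

namespace Cfsg.Agent.Chev

open Finset

namespace RD

variable {l n : ℕ} (R : RD l n)

/-- parity of a root with respect to a vector -/
def ev (e : Fin l → ℤ) (s : Fin n) : Prop := Even (∑ i, e i * R.co s i)

def InGam (e : Fin l → ℤ) (L : List (Fin n)) (w : Equiv.Perm (Fin n)) : Prop :=
  w ∈ R.W ∧ (∀ s, R.ev e (w s) ↔ R.ev e s) ∧ ∀ a ∈ L, w a = a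

def Psi (e : Fin l → ℤ) (L : List (Fin n)) (r : Fin n) : Prop :=
  R.ev e r ∧ ∀ a ∈ L, R.pair a (R.co r) = 0

def Orb (e : Fin l → ℤ) (L : List (Fin n)) (a m : Fin n) : Prop :=
  (R.ev e m ↔ R.ev e a) ∧ R.len m = R.len a ∧ ∀ b ∈ L, R.pair b (R.co m) = R.pair b (R.co a)

open Classical in
noncomputable def invP (e : Fin l → ℤ) (L : List (Fin n)) (w : Equiv.Perm (Fin n)) : ℕ :=
  (univ.filter fun r => R.pos r ∧ R.Psi e L r ∧ ¬ R.pos (w r)).card

open Classical in
noncomputable def poin (q : ℕ) (e : Fin l → ℤ) (L : List (Fin n)) : ℕ :=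
  ∑ w ∈ univ.filter (R.InGam e L), q ^ R.invP e L w

open Classical in
noncomputable def expo (e : Fin l → ℤ) (L : List (Fin n)) (m : Fin n) : ℕ :=
  (univ.filter fun g => ¬ R.pos g ∧ R.Psi e L g ∧ 0 < R.pair m (R.co g)).card

variable {R} {e : Fin l → ℤ} {L : List (Fin n)}

theorem InGam.one : R.InGam e L 1 := ⟨one_mem _, fun _ => Iff.rfl, fun _ _ => rfl⟩

theorem InGam.mul {w u : Equiv.Perm (Fin n)} (hw : R.InGam e L w) (hu : R.InGam e L u) :
    R.InGam e L (w * u) :=
  ⟨mul_mem hw.1 hu.1, fun s => (hw.2.1 (u s)).trans (hu.2.1 s), fun a ha => by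
    rw [Equiv.Perm.mul_apply, hu.2.2 a ha, hw.2.2 a ha]⟩

theorem InGam.inv {w : Equiv.Perm (Fin n)} (hw : R.InGam e L w) : R.InGam e L w⁻¹ :=
  ⟨inv_mem hw.1, fun s => by rw [← hw.2.1 (w⁻¹ s)]; simp, fun a ha => by
    rw [Equiv.Perm.inv_eq_iff_eq, hw.2.2 a ha]⟩

theorem InGam.psi {w : Equiv.Perm (Fin n)} (hw : R.InGam e L w) (r : Fin n) :
    R.Psi e L (w r) ↔ R.Psi e L r := by
  unfold Psi
  rw [hw.2.1]
  refine and_congr_right fun _ => forall₂_congr fun a ha => ?_
  rw [← W_pair hw.1 a r, hw.2.2 a ha]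

theorem InGam.orb {w : Equiv.Perm (Fin n)} (hw : R.InGam e L w) {a m : Fin n} (h : R.Orb e L a m) :
    R.Orb e L a (w m) :=
  ⟨(hw.2.1 m).trans h.1, (W_len hw.1 m).trans h.2.1, fun b hb => by
    rw [← h.2.2 b hb, ← W_pair hw.1 b m, hw.2.2 b hb]⟩

theorem ev_neg (r : Fin n) : R.ev e (R.neg r) ↔ R.ev e r := by
  unfold ev
  simp only [R.co_neg, mul_neg, Finset.sum_neg_distrib, even_neg]

theorem psi_neg (r : Fin n) : R.Psi e L (R.neg r) ↔ R.Psi e L r := by
  unfold Psi
  rw [ev_neg]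
  refine and_congr_right fun _ => forall₂_congr fun a _ => ?_
  rw [co_neg', map_neg, neg_eq_zero]

theorem IsRefl.inGam {r : Fin n} {σ : Equiv.Perm (Fin n)} (h : R.IsRefl r σ) (hW : σ ∈ R.W)
    (hr : R.Psi e L r) : R.InGam e L σ := by
  refine ⟨hW, fun s => ?_, fun a ha => h.fix (R.pair_eq_zero_comm (hr.2 a ha))⟩
  unfold ev
  have : ∑ i, e i * R.co (σ s) i =
      ∑ i, e i * R.co s i - R.pair r (R.co s) * ∑ i, e i * R.co r i := by
    rw [h, Finset.mul_sum, ← Finset.sum_sub_distrib]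
    refine Finset.sum_congr rfl fun i _ => ?_
    simp only [Pi.sub_apply, Pi.smul_apply, smul_eq_mul]; ring
  rw [this, Int.even_sub]
  have h2 : Even (R.pair r (R.co s) * ∑ i, e i * R.co r i) := Even.mul_left hr.1 _
  simp [h2]

theorem sum_pair_pos {r : Fin n} (hp : R.pos r) (hr : R.Psi e L r) (T : Finset (Fin n))
    (hT : ∀ s, s ∈ T ↔ R.pos s ∧ R.Psi e L s) : 0 < ∑ s ∈ T, R.pair r (R.co s) := by
  obtain ⟨σ, hW, hσ⟩ := R.exists_refl r
  have hG := hσ.inGam hW hr
  have h1 : ∑ s ∈ T, R.ht (σ s) = ∑ s ∈ T, R.ht s - (∑ s ∈ T, R.pair r (R.co s)) * R.ht r := by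
    rw [Finset.sum_mul, ← Finset.sum_sub_distrib]
    exact Finset.sum_congr rfl fun s _ => hσ.ht s
  let τ : Fin n → Fin n := fun s => if R.pos (σ s) then σ s else R.neg (σ s)
  have hτ : ∀ s ∈ T, τ s ∈ T := by
    intro s hs
    rw [hT] at hs ⊢
    by_cases h : R.pos (σ s)
    · simp only [τ, if_pos h]; exact ⟨h, (hG.psi s).2 hs.2⟩
    · simp only [τ, if_neg h]; exact ⟨(R.pos_neg _).2 h, (psi_neg _).2 ((hG.psi s).2 hs.2)⟩
  have hinj : Set.InjOn τ T := by
    intro a ha b hb hab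
    have ha := ((hT a).1 ha).1
    have hb := ((hT b).1 hb).1
    by_cases h1 : R.pos (σ a) <;> by_cases h2 : R.pos (σ b) <;>
      simp only [τ, h1, h2, if_true, if_false] at hab
    · exact σ.injective hab
    · rw [← W_neg hW] at hab
      rw [σ.injective hab, pos_neg] at ha
      exact absurd hb ha
    · rw [← W_neg hW] at hab
      rw [← σ.injective hab, pos_neg] at hb
      exact absurd ha hb
    · exact σ.injective (R.neg_inj hab)
  have h2 : ∑ s ∈ T, R.ht (τ s) = ∑ s ∈ T, R.ht s := by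
    rw [← Finset.sum_image (f := R.ht) hinj]
    congr 1
    apply Finset.eq_of_subset_of_card_le
    · intro x hx
      obtain ⟨s, hs, rfl⟩ := Finset.mem_image.1 hx
      exact hτ s hs
    · rw [Finset.card_image_of_injOn hinj]
  have h3 : ∑ s ∈ T, R.ht (σ s) < ∑ s ∈ T, R.ht (τ s) := by
    refine Finset.sum_lt_sum (fun s _ => ?_) ⟨r, (hT r).2 ⟨hp, hr⟩, ?_⟩
    · by_cases h : R.pos (σ s)
      · simp only [τ, if_pos h, le_refl]
      · simp only [τ, if_neg h, ht_neg]
        have := (R.not_pos_iff _).1 h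
        omega
    · have h : ¬ R.pos (σ r) := by rw [hσ.self, pos_neg, not_not]; exact hp
      simp only [τ, if_neg h, ht_neg]
      have := (R.not_pos_iff _).1 h
      omega
  have h4 : 0 < (∑ s ∈ T, R.pair r (R.co s)) * R.ht r := by omega
  exact (mul_pos_iff_of_pos_right hp).1 h4

theorem exists_good {a m : Fin n}
    (hconn : ∀ m, R.Orb e L a m → m = a ∨ ∃ r, R.pos r ∧ R.Psi e L r ∧ R.pair r (R.co m) < 0)
    (hm : R.Orb e L a m) :
    ∃ d, R.InGam e L d ∧ d a = m ∧ ∀ r, R.pos r → R.Psi e (a :: L) r → R.pos (d r) := by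
  classical
  have h1 : ∃ d, R.InGam e L d ∧ d a = m := by
    by_contra hc
    obtain ⟨m', hm', hmax⟩ := Finset.exists_max_image
      (univ.filter fun m => R.Orb e L a m ∧ ¬ ∃ d, R.InGam e L d ∧ d a = m) R.ht
      ⟨m, by simp only [mem_filter, mem_univ, true_and]; exact ⟨hm, hc⟩⟩
    simp only [mem_filter, mem_univ, true_and] at hm' hmax
    rcases hconn m' hm'.1 with h | ⟨r, hp, hr, hlt⟩
    · exact hm'.2 ⟨1, InGam.one, h.symm⟩
    · obtain ⟨σ, hW, hσ⟩ := R.exists_refl r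
      have hG := hσ.inGam hW hr
      have h2 := hσ.ht m'
      have h3 : R.pair r (R.co m') * R.ht r < 0 := mul_neg_of_neg_of_pos hlt hp
      have h4 : ∃ d, R.InGam e L d ∧ d a = σ m' := by
        by_contra h5
        have := hmax (σ m') ⟨hG.orb hm'.1, h5⟩
        omega
      obtain ⟨d, hd, hda⟩ := h4
      exact hm'.2 ⟨σ⁻¹ * d, hG.inv.mul hd, by rw [Equiv.Perm.mul_apply, hda]; simp⟩
  let T : Finset (Fin n) := univ.filter fun s => R.pos s ∧ R.Psi e (a :: L) s
  obtain ⟨d, hd, hmax⟩ := Finset.exists_max_image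
    (univ.filter fun d => R.InGam e L d ∧ d a = m) (fun d => ∑ s ∈ T, R.ht (d s))
    (by obtain ⟨d, hd⟩ := h1; exact ⟨d, by simp only [mem_filter, mem_univ, true_and]; exact hd⟩)
  simp only [mem_filter, mem_univ, true_and] at hd hmax
  refine ⟨d, hd.1, hd.2, fun r hp hr => ?_⟩
  by_contra hn
  obtain ⟨σ, hW, hσ⟩ := R.exists_refl r
  have hG := hσ.inGam hW hr
  have hG' : R.InGam e L σ := ⟨hG.1, hG.2.1, fun b hb => hG.2.2 b (List.mem_cons_of_mem _ hb)⟩
  have h2 := hmax (d * σ) ⟨hd.1.mul hG', by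
    rw [Equiv.Perm.mul_apply, hG.2.2 a List.mem_cons_self, hd.2]⟩
  have h3 : ∑ s ∈ T, R.ht ((d * σ) s) =
      ∑ s ∈ T, R.ht (d s) - (∑ s ∈ T, R.pair r (R.co s)) * R.ht (d r) := by
    rw [Finset.sum_mul, ← Finset.sum_sub_distrib]
    refine Finset.sum_congr rfl fun s _ => ?_
    have h4 : R.co (σ s) = (1 : ℤ) • R.co s + (-R.pair r (R.co s)) • R.co r := by
      rw [hσ, one_smul, neg_smul, sub_eq_add_neg]
    have h5 := W_rel hd.1.1 h4
    rw [Equiv.Perm.mul_apply]
    unfold ht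
    rw [h5, map_add, map_zsmul, map_zsmul]
    simp only [smul_eq_mul]; ring
  have h4 := sum_pair_pos hp hr T (fun s => by simp [T])
  have h5 := (R.not_pos_iff _).1 hn
  have h6 : (∑ s ∈ T, R.pair r (R.co s)) * R.ht (d r) < 0 := mul_neg_of_pos_of_neg h4 h5
  omega

theorem invP_mul {a : Fin n} {d u : Equiv.Perm (Fin n)}
    (hdom : ∀ r, R.pos r → R.Psi e L r → 0 ≤ R.pair a (R.co r))
    (hd : R.InGam e L d) (hdp : ∀ r, R.pos r → R.Psi e (a :: L) r → R.pos (d r))
    (hu : R.InGam e (a :: L) u) :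
    R.invP e L (d * u) = R.expo e L (d a) + R.invP e (a :: L) u := by
  classical
  have hu' : R.InGam e L u := ⟨hu.1, hu.2.1, fun b hb => hu.2.2 b (List.mem_cons_of_mem _ hb)⟩
  have hw := hd.mul hu'
  have hwa : (d * u) a = d a := by rw [Equiv.Perm.mul_apply, hu.2.2 a List.mem_cons_self]
  have hpsi : ∀ r, R.Psi e (a :: L) r ↔ R.Psi e L r ∧ R.pair a (R.co r) = 0 := by
    intro r
    unfold Psi
    simp only [List.mem_cons, forall_eq_or_imp]
    tauto
  have hsg : ∀ r, R.Psi e (a :: L) r → (R.pos (d r) ↔ R.pos r) := by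
    intro r hr
    refine ⟨fun h => ?_, fun h => hdp r h hr⟩
    by_contra hn
    have := hdp (R.neg r) ((R.pos_neg r).2 hn) ((psi_neg r).2 hr)
    rw [W_neg hd.1, pos_neg] at this
    exact this h
  unfold invP expo
  rw [← Finset.card_filter_add_card_filter_not (p := fun r => 0 < R.pair a (R.co r))]
  congr 1
  · refine Finset.card_bij (fun r _ => (d * u) r) ?_ (fun x _ y _ h => (d * u).injective h) ?_
    · intro r hr
      simp only [mem_filter, mem_univ, true_and] at hr ⊢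
      refine ⟨hr.1.2.2, (hw.psi r).2 hr.1.2.1, ?_⟩
      rw [← hwa, W_pair hw.1]; exact hr.2
    · intro g hg
      simp only [mem_filter, mem_univ, true_and] at hg
      have e1 : (d * u) ((d * u)⁻¹ g) = g := by
        rw [← Equiv.Perm.mul_apply, mul_inv_cancel, Equiv.Perm.one_apply]
      have h1 : R.Psi e L ((d * u)⁻¹ g) := by rw [← hw.psi, e1]; exact hg.2.1
      have h2 : 0 < R.pair a (R.co ((d * u)⁻¹ g)) := by
        rw [← W_pair hw.1, hwa, e1]; exact hg.2.2
      refine ⟨(d * u)⁻¹ g, ?_, e1⟩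
      simp only [mem_filter, mem_univ, true_and]
      refine ⟨⟨?_, h1, by rw [e1]; exact hg.1⟩, h2⟩
      by_contra hn
      have := hdom _ ((R.pos_neg _).2 hn) ((psi_neg _).2 h1)
      rw [co_neg', map_neg] at this
      omega
  · rw [Finset.filter_filter]
    congr 1
    ext r
    simp only [mem_filter, mem_univ, true_and]
    constructor
    · rintro ⟨⟨h1, h2, h3⟩, h4⟩
      have h5 : R.Psi e (a :: L) r := (hpsi r).2 ⟨h2, by have := hdom r h1 h2; omega⟩
      refine ⟨h1, h5, fun h => h3 ?_⟩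
      rw [Equiv.Perm.mul_apply, hsg _ ((hu.psi r).2 h5)]; exact h
    · rintro ⟨h1, h2, h3⟩
      have h5 := (hpsi r).1 h2
      refine ⟨⟨h1, h5.1, fun h => h3 ?_⟩, by omega⟩
      rw [Equiv.Perm.mul_apply, hsg _ ((hu.psi r).2 h2)] at h; exact h

open Classical in
theorem poin_step (q : ℕ) (a : Fin n)
    (hdom : ∀ r, R.pos r → R.Psi e L r → 0 ≤ R.pair a (R.co r))
    (hconn : ∀ m, R.Orb e L a m → m = a ∨ ∃ r, R.pos r ∧ R.Psi e L r ∧ R.pair r (R.co m) < 0) :
    R.poin q e L = (∑ m ∈ univ.filter (R.Orb e L a), q ^ R.expo e L m) * R.poin q e (a :: L) := by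
  unfold poin
  rw [← Finset.sum_fiberwise_of_maps_to (s := univ.filter (R.InGam e L))
    (t := univ.filter (R.Orb e L a)) (g := fun w => w a), Finset.sum_mul]
  · refine Finset.sum_congr rfl fun m hm => ?_
    obtain ⟨d, hd, hda, hdp⟩ := exists_good hconn (mem_filter.1 hm).2
    rw [Finset.mul_sum]
    symm
    refine Finset.sum_bij (fun u _ => d * u) ?_ (fun x _ y _ h => mul_left_cancel h) ?_ ?_
    · intro u hu
      have hu := (mem_filter.1 hu).2
      have hu' : R.InGam e L u := ⟨hu.1, hu.2.1, fun b hb => hu.2.2 b (List.mem_cons_of_mem _ hb)⟩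
      simp only [mem_filter, mem_univ, true_and]
      exact ⟨hd.mul hu', by rw [Equiv.Perm.mul_apply, hu.2.2 a List.mem_cons_self, hda]⟩
    · intro w hw
      simp only [mem_filter, mem_univ, true_and] at hw
      refine ⟨d⁻¹ * w, ?_, by simp⟩
      simp only [mem_filter, mem_univ, true_and]
      have h1 := hd.inv.mul hw.1
      refine ⟨h1.1, h1.2.1, fun b hb => ?_⟩
      rcases List.mem_cons.1 hb with rfl | hb
      · rw [Equiv.Perm.mul_apply, hw.2, ← hda]; simp
      · exact h1.2.2 b hb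
    · intro u hu
      rw [invP_mul hdom hd hdp (mem_filter.1 hu).2, pow_add, hda]
  · intro w hw
    simp only [mem_filter, mem_univ, true_and] at hw ⊢
    exact hw.orb ⟨Iff.rfl, rfl, fun _ _ => rfl⟩

theorem poin_end (q : ℕ) (h : ∀ i m, R.Orb e L (R.sim i) m → m = R.sim i) : R.poin q e L = 1 := by
  classical
  unfold poin
  have : univ.filter (R.InGam e L) = {1} := by
    ext w
    simp only [mem_filter, mem_univ, true_and, mem_singleton]
    constructor
    · intro hw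
      exact W_ext hw.1 fun i => h i _ (hw.orb ⟨Iff.rfl, rfl, fun _ _ => rfl⟩)
    · rintro rfl; exact InGam.one
  rw [this, Finset.sum_singleton]
  have : R.invP e L 1 = 0 := by
    unfold invP
    rw [Finset.card_eq_zero, Finset.filter_eq_empty_iff]
    rintro r - ⟨h1, -, h2⟩
    exact h2 h1
  rw [this, pow_zero]

end RD

end Cfsg.Agent.Chev
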