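import Cfsg.Agent.Lib.Chev.Unip
import Cfsg.Agent.Lib.Chev.Poin

/-! Bruhat decomposition and the order of the centraliser of a torus element. -/

set_option autoImplicit false

namespace Cfsg.Agent.Chev

open Finset Matrix

namespace Sys

variable {l n : ℕ} {R : RD l n} {F : Type*} [Field F] {G : Type*} [Group G] (S : Sys R F G)

/-- the Borel subgroup -/
def Bor : Subgroup G where
  carrier := {g | ∃ u ∈ S.X R.posF, ∃ c, g = u * S.h c}
  one_mem' := ⟨1, one_mem _, 1, by rw [h_one, mul_one]⟩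
  mul_mem' := by
    rintro _ _ ⟨u, hu, c, rfl⟩ ⟨v, hv, d, rfl⟩
    exact ⟨u * (S.h c * v * (S.h c)⁻¹), mul_mem hu (S.h_conj_X c hv), c * d, by rw [h_mul]; group⟩
  inv_mem' := by
    rintro _ ⟨u, hu, c, rfl⟩
    exact ⟨(S.h c)⁻¹ * u⁻¹ * S.h c, S.h_conj_X' c (inv_mem hu), c⁻¹, by rw [← h_inv]; group⟩

theorem U_le_Bor {u : G} (hu : u ∈ S.X R.posF) : u ∈ S.Bor := ⟨u, hu, 1, by rw [h_one, mul_one]⟩

theorem h_mem_Bor (c : Fin l → Fˣ) : S.h c ∈ S.Bor := ⟨1, one_mem _, c, by rw [one_mul]⟩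

theorem x_mem_Bor {r : Fin n} (hr : R.pos r) (t : F) : S.x r t ∈ S.Bor :=
  S.U_le_Bor (S.x_mem ((R.mem_posF r).2 hr) t)

variable {S} in
theorem Mon.exists_h {g g' : G} {w : Equiv.Perm (Fin n)} {c c' : Fin n → Fˣ} (h : S.Mon g w c)
    (h' : S.Mon g' w c') : ∃ d, g = S.h d * g' := by
  have h1 := h.mul h'.inv
  rw [mul_inv_cancel] at h1
  exact ⟨_, mul_inv_eq_iff_eq_mul.1 h1.eq_h⟩

def InBNB (g : G) : Prop :=
  ∃ b ∈ S.Bor, ∃ (m : G) (w : Equiv.Perm (Fin n)) (c : Fin n → Fˣ), S.Mon m w c ∧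
    ∃ b' ∈ S.Bor, g = b * m * b'

variable {S}

theorem InBNB.mul_B {g b : G} (h : S.InBNB g) (hb : b ∈ S.Bor) : S.InBNB (g * b) := by
  obtain ⟨b1, h1, m, w, c, hm, b2, h2, rfl⟩ := h
  exact ⟨b1, h1, m, w, c, hm, b2 * b, mul_mem h2 hb, by group⟩

theorem x_neg_eq (i : Fin l) (a : Fˣ) : S.x (R.neg (R.sim i)) (-(a : F)⁻¹) =
    S.x (R.sim i) (-a) * S.ns i a * S.x (R.sim i) (-a) := by
  rw [← S.x_inv (R.sim i) a, ns]
  simp only [mul_assoc, mul_inv_cancel, mul_one, inv_mul_cancel_left]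

theorem InBNB.mul_ns {g : G} (h : S.InBNB g) (i : Fin l) : S.InBNB (g * S.ns i 1) := by
  obtain ⟨b1, h1, m, w, c, hm, _, ⟨u, hu, d, rfl⟩, rfl⟩ := h
  obtain ⟨t, z, hz, rfl⟩ := S.dec_exists R.closed_posF (fun r hr => (R.mem_posF r).1 hr)
    ((R.mem_posF _).2 (R.pos_sim i)) hu
  have hn := S.mon_ns i
  have h2 : (S.ns i 1)⁻¹ * z * (S.ns i 1)⁻¹⁻¹ ∈ S.X R.posF := by
    refine hn.inv.conj_X (fun r hr => ?_) hz
    obtain ⟨h3, h4⟩ := mem_erase.1 hr
    rw [R.sr_inv, R.mem_posF]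
    exact R.sr_pos i ((R.mem_posF r).1 h4) h3
  have e : b1 * m * (S.x (R.sim i) t * z * S.h d) * S.ns i 1 =
      b1 * m * S.x (R.sim i) t * S.ns i 1 *
        ((S.ns i 1)⁻¹ * z * (S.ns i 1)⁻¹⁻¹ * S.h (R.act (R.sr i) d)) := by
    rw [mul_assoc, mul_assoc, mul_assoc, hn.h_mul]; group
  rw [e]
  refine InBNB.mul_B ?_ (mul_mem (S.U_le_Bor h2) (S.h_mem_Bor _))
  by_cases hp : R.pos (w (R.sim i))
  · refine ⟨_, mul_mem h1 (S.x_mem_Bor hp (c (R.sim i) * t)), _, _, _, hm.mul hn, 1, one_mem _, ?_⟩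
    rw [mul_assoc b1, hm.conj]; group
  by_cases ht : t = 0
  · exact ⟨b1, h1, _, _, _, hm.mul hn, 1, one_mem _, by rw [ht, x_zero]; group⟩
  have h3 := hn.conj (R.neg (R.sim i)) ((((S.η i (R.neg (R.sim i)))⁻¹ : Fˣ) : F) * t)
  rw [RD.W_neg (R.sr_mem i), R.sr_sim, R.neg_neg, ← mul_assoc, Units.mul_inv, one_mul] at h3
  let a : Fˣ := -((S.η i (R.neg (R.sim i)))⁻¹ * Units.mk0 t ht)⁻¹
  have h4 : (((S.η i (R.neg (R.sim i)))⁻¹ : Fˣ) : F) * t = -(a : F)⁻¹ := by simp [a, mul_comm]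
  rw [h4, x_neg_eq] at h3
  obtain ⟨c', hn', -⟩ := S.mon_ns' i a
  have h5 := (hm.mul hn).conj (R.sim i) (-a)
  have hp' : R.pos ((w * R.sr i) (R.sim i)) := by
    rw [Equiv.Perm.mul_apply, R.sr_sim, RD.W_neg hm.mem, R.pos_neg]; exact hp
  refine ⟨_, mul_mem h1 (S.x_mem_Bor hp'
    (((c (R.sr i (R.sim i)) * S.η i (R.sim i) : Fˣ) : F) * -a)), _, _, _, (hm.mul hn).mul hn', _,
    S.x_mem_Bor (R.pos_sim i) (-a), ?_⟩
  rw [mul_assoc (b1 * m), ← h3, mul_assoc b1 (S.x _ _), ← mul_assoc (S.x _ _), ← h5]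
  simp only [mul_assoc]

theorem InBNB.mul_mon {w : Equiv.Perm (Fin n)} (hw : w ∈ R.W) :
    ∀ {m : G} {c : Fin n → Fˣ}, S.Mon m w c → ∀ {g : G}, S.InBNB g → S.InBNB (g * m) := by
  refine R.W_ind (P := fun w => ∀ {m : G} {c : Fin n → Fˣ}, S.Mon m w c →
    ∀ {g : G}, S.InBNB g → S.InBNB (g * m)) ?_ ?_ hw
  · intro m c hm g hg
    rw [hm.eq_h]
    exact hg.mul_B (S.h_mem_Bor _)
  · intro i w _ ih m c hm g hg
    have h1 := (S.mon_ns i).inv.mul hm
    rw [inv_mul_cancel_left] at h1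
    have := ih h1 (hg.mul_ns i)
    rwa [mul_assoc, mul_inv_cancel_left] at this

variable (S)

theorem inBNB (g : G) : S.InBNB g := by
  have key : ∀ g r t, S.InBNB g → S.InBNB (g * S.x r t) := by
    intro g r t hg
    obtain ⟨w, hw, i, rfl⟩ := R.exists_W_sim r
    obtain ⟨m, c, hm⟩ := S.exists_mon hw
    have h1 := hm.conj' (R.sim i) ((((c (R.sim i))⁻¹ : Fˣ) : F) * t)
    rw [← mul_assoc, Units.mul_inv, one_mul] at h1
    rw [← h1, ← mul_assoc, ← mul_assoc]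
    exact InBNB.mul_mon (inv_mem hw) hm.inv
      ((InBNB.mul_mon hw hm hg).mul_B (S.x_mem_Bor (R.pos_sim i) _))
  have hg : g ∈ Subgroup.closure {g | ∃ r t, g = S.x r t} := by rw [S.gen]; trivial
  induction hg using Subgroup.closure_induction_right with
  | one => exact ⟨1, one_mem _, 1, 1, 1, Mon.one, 1, one_mem _, by simp⟩
  | mul_right x _ y hy ih => obtain ⟨r, t, rfl⟩ := hy; exact key x r t ih
  | mul_inv_cancel x _ y hy ih => obtain ⟨r, t, rfl⟩ := hy; rw [x_inv]; exact key x r _ ih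

variable {S}

theorem Mon.W_unique {m m' b b' : G} {w w' : Equiv.Perm (Fin n)} {c c' : Fin n → Fˣ}
    (hm : S.Mon m w c) (hm' : S.Mon m' w' c') (hb : b ∈ S.Bor) (hb' : b' ∈ S.Bor)
    (h : b * m = m' * b') : w = w' := by
  obtain ⟨u, hu, d, rfl⟩ := hb
  obtain ⟨u', hu', d', rfl⟩ := hb'
  have key : ∀ s, (w'⁻¹ * w) s = s ∨ R.ht s < R.ht ((w'⁻¹ * w) s) := by
    intro s
    by_cases hs : (w'⁻¹ * w) s = s
    · exact Or.inl hs
    right
    have h1 := congrArg (fun g => S.ρ g (Sum.inr (w s)) (Sum.inr s)) h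
    simp only [map_mul] at h1
    have h2 := hm'.mul_left (S.ρ u' * S.ρ (S.h d')) (Sum.inr s) ((w'⁻¹ * w) s)
    have e : w' ((w'⁻¹ * w) s) = w s := by simp
    rw [e] at h2
    rw [h2, hm.mul_right, rho_h, rho_h, RD.hmat, RD.hmat, mul_diagonal, mul_diagonal,
      S.U_diag hu] at h1
    have h3 : S.ρ u' (Sum.inr ((w'⁻¹ * w) s)) (Sum.inr s) ≠ 0 := by
      intro h4
      rw [h4] at h1
      simp at h1
    have hne : (Sum.inr ((w'⁻¹ * w) s) : Ix l n) ≠ Sum.inr s := fun h5 => hs (Sum.inr.inj h5)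
    have h4 := S.U_tri hu' (Sum.inr ((w'⁻¹ * w) s)) (Sum.inr s)
      (by rw [Matrix.sub_apply, Matrix.one_apply_ne hne, sub_zero]; exact h3)
    rw [map_sub] at h4
    exact sub_pos.1 h4
  have h5 : w'⁻¹ * w = 1 := by
    by_contra hne
    have h6 : ∃ s, R.ht s < R.ht ((w'⁻¹ * w) s) := by
      by_contra h7
      push Not at h7
      apply hne
      ext s
      rcases key s with h8 | h8
      · rw [h8]; rfl
      · exact absurd h8 (not_lt.2 (h7 s))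
    obtain ⟨s0, h6⟩ := h6
    have h7 : ∑ s, R.ht s < ∑ s, R.ht ((w'⁻¹ * w) s) :=
      Finset.sum_lt_sum (fun s _ => by rcases key s with h | h; rw [h]; exact h.le)
        ⟨s0, mem_univ _, h6⟩
    rw [Equiv.sum_comp (w'⁻¹ * w) R.ht] at h7
    exact lt_irrefl _ h7
  exact (inv_mul_eq_one.1 h5).symm

theorem Mon.bruhat_unique {m b b' v v' : G} {w : Equiv.Perm (Fin n)} {c : Fin n → Fˣ}
    (hm : S.Mon m w c) (hb : b ∈ S.Bor) (hb' : b' ∈ S.Bor) (hv : v ∈ S.X (R.invF w))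
    (hv' : v' ∈ S.X (R.invF w)) (h : b * m * v = b' * m * v') : b = b' ∧ v = v' := by
  have h1 : m * (v' * v⁻¹) * m⁻¹ ∈ S.X R.negF :=
    hm.conj_X (fun r hr => by simp at hr ⊢; exact hr.2) (mul_mem hv' (inv_mem hv))
  obtain ⟨u, hu, d, hd⟩ := mul_mem (inv_mem hb') hb
  have h2 : u * S.h d = m * (v' * v⁻¹) * m⁻¹ := by
    rw [← hd]
    have : b = b' * m * v' * v⁻¹ * m⁻¹ := by rw [← h]; group
    rw [this]; group
  have h3 := S.B_inf_V hu h1 h2
  have h4 : v' * v⁻¹ = 1 := by simpa using h3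
  obtain rfl := mul_inv_eq_one.1 h4
  exact ⟨by simpa using h, rfl⟩

variable (S)

theorem bruhat_exists [Fintype F] (g : G) : ∃ w ∈ R.W, ∀ m c, S.Mon m w c →
    ∃ b ∈ S.Bor, ∃ v ∈ S.X (R.invF w), g = b * m * v := by
  obtain ⟨b, hb, m, w, c, hm, _, ⟨u, hu, d, rfl⟩, rfl⟩ := S.inBNB g
  refine ⟨w, hm.mem, fun m' c' hm' => ?_⟩
  obtain ⟨a, ha, v, hv, e⟩ := S.U_split hm.mem (S.h_conj_X' d hu)
  have h1 := hm.mul (S.mon_h d)
  rw [mul_one] at h1
  obtain ⟨d', hd'⟩ := h1.exists_h hm'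
  have h2 : m' * a * m'⁻¹ ∈ S.X R.posF := hm'.conj_X (fun r hr => by simp at hr ⊢; exact hr.2) ha
  refine ⟨b * S.h d' * (m' * a * m'⁻¹),
    mul_mem (mul_mem hb (S.h_mem_Bor _)) (S.U_le_Bor h2), v, hv, ?_⟩
  have e1 : u * S.h d = S.h d * (a * v) := by rw [← e]; group
  rw [e1, ← mul_assoc, mul_assoc b m, hd']; group

include S in
theorem finite [Finite F] : Finite G := Finite.of_injective _ S.inj

open Classical in
theorem card_cent [Fintype F] (c : Fin l → Fˣ) :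
    Nat.card (Subgroup.centralizer ({S.h c} : Set G)) =
      ∑ w ∈ univ.filter (fun w => w ∈ R.W ∧ R.act w c = c),
        Fintype.card F ^ (R.posF.filter fun r => chi c (R.co r) = 1).card *
          ((Fintype.card F - 1) ^ l *
          Fintype.card F ^ ((R.invF w).filter fun r => chi c (R.co r) = 1).card) := by
  haveI := S.finite
  choose m k hm using fun w : {w // w ∈ R.W ∧ R.act w c = c} => S.exists_mon w.2.1
  have hc : ∀ w, S.h c * m w = m w * S.h c := fun w => by rw [(hm w).h_mul, w.2.2]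
  let f : (Σ w : {w // w ∈ R.W ∧ R.act w c = c},
      {g // g ∈ S.X R.posF ∧ S.h c * g = g * S.h c} × (Fin l → Fˣ) ×
        {g // g ∈ S.X (R.invF w) ∧ S.h c * g = g * S.h c}) →
      Subgroup.centralizer ({S.h c} : Set G) := fun p =>
    ⟨p.2.1.1 * S.h p.2.2.1 * m p.1 * p.2.2.2.1, by
      rw [Subgroup.mem_centralizer_singleton_iff, mul_assoc, ← p.2.2.2.2.2, ← mul_assoc,
        mul_assoc _ (m _), ← hc, ← mul_assoc, mul_assoc _ (S.h _) (S.h c), h_comm, ← mul_assoc,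
        ← p.2.1.2.2]
      simp only [mul_assoc]⟩
  have s2 : ∀ w, R.invF w ⊆ R.posF := fun w r hr => by simp at hr ⊢; exact hr.1
  have hf : Function.Bijective f := by
    constructor
    · rintro ⟨w, ⟨u, hu⟩, d, v, hv⟩ ⟨w', ⟨u', hu'⟩, d', v', hv'⟩ h
      have h0 : u * S.h d * m w * v = u' * S.h d' * m w' * v' := congrArg Subtype.val h
      have hb : u * S.h d ∈ S.Bor := ⟨u, hu.1, d, rfl⟩
      have hb' : u' * S.h d' ∈ S.Bor := ⟨u', hu'.1, d', rfl⟩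
      have h1 : w = w' := by
        refine Subtype.ext ((hm w).W_unique (hm w') (mul_mem (inv_mem hb') hb)
          (S.U_le_Bor (mul_mem (S.X_mono (s2 _) hv'.1) (inv_mem (S.X_mono (s2 w) hv.1)))) ?_)
        have : u * S.h d = u' * S.h d' * m w' * v' * v⁻¹ * (m w)⁻¹ := by rw [← h0]; group
        rw [this]; group
      subst h1
      obtain ⟨h2, rfl⟩ := (hm w).bruhat_unique hb hb' hv.1 hv'.1 h0
      obtain ⟨rfl, rfl⟩ := S.B_unique hu.1 hu'.1 h2
      rfl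
    · rintro ⟨g, hg⟩
      rw [Subgroup.mem_centralizer_singleton_iff] at hg
      obtain ⟨w, hw, hg'⟩ := S.bruhat_exists g
      obtain ⟨m0, k0, hm0⟩ := S.exists_mon hw
      obtain ⟨_, ⟨u, hu, d, rfl⟩, v, hv, e⟩ := hg' m0 k0 hm0
      obtain ⟨d', hd'⟩ := ((S.mon_h c).mul (hm0.mul (S.mon_h c).inv)).exists_h
        (by simpa using hm0)
      have e1 : S.h c * u * (S.h c)⁻¹ * S.h (d * d') * m0 * (S.h c * v * (S.h c)⁻¹) =
          u * S.h d * m0 * v := by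
        rw [← e, h_mul, mul_assoc _ (S.h d * S.h d'), mul_assoc (S.h d), ← hd', ← mul_assoc (S.h d),
          h_comm S d c]
        have : g = S.h c * g * (S.h c)⁻¹ := by rw [← hg]; group
        rw [this, e]; group
      obtain ⟨h2, h3⟩ := hm0.bruhat_unique ⟨_, S.h_conj_X c hu, _, rfl⟩ ⟨u, hu, d, rfl⟩
        (S.h_conj_X c hv) hv e1
      obtain ⟨h4, h5⟩ := S.B_unique (S.h_conj_X c hu) hu h2
      have h6 : d' = 1 := by simpa using h5
      rw [h6, h_one, one_mul, ← mul_assoc, mul_inv_eq_iff_eq_mul, hm0.h_mul] at hd'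
      have h7 : R.act w c = c := S.h_inj (mul_left_cancel hd')
      obtain ⟨d'', hd''⟩ := hm0.exists_h (hm ⟨w, hw, h7⟩)
      refine ⟨⟨⟨w, hw, h7⟩, ⟨u, hu, mul_inv_eq_iff_eq_mul.1 h4⟩, d * d'', v, hv,
        mul_inv_eq_iff_eq_mul.1 h3⟩, Subtype.ext ?_⟩
      simp only [f]
      rw [e, hd'', h_mul]; group
  rw [← Nat.card_eq_of_bijective f hf, Nat.card_sigma,
    Finset.sum_subtype (p := fun w => w ∈ R.W ∧ R.act w c = c) _ (fun w => by simp)]
  refine Finset.sum_congr rfl fun w _ => ?_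
  rw [Nat.card_prod, Nat.card_prod, S.card_fix c _ R.closed_posF (fun r hr => (R.mem_posF r).1 hr),
    S.card_fix c _ (R.closed_invF w.2.1) (fun r hr => ((R.mem_invF _ r).1 hr).1), Nat.card_fun,
    Nat.card_eq_fintype_card (α := Fˣ), Fintype.card_units]
  simp

end Sys

end Cfsg.Agent.Chev
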