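import Cfsg.Agent.Lib.Chev.Inv

/-! Involutions of the torus: sign characters, their centralisers and Weyl group orbits. -/

set_option autoImplicit false

namespace Cfsg.Agent.Chev

open Finset

def bits (l : ℕ) (k : ℕ) : Fin l → ℤ := fun j => if k.testBit j then 1 else 0

def sgn {l : ℕ} (F : Type*) [Field F] (e : Fin l → ℤ) : Fin l → Fˣ := fun i => (-1) ^ e i

theorem chi_sgn {l : ℕ} {F : Type*} [Field F] (e v : Fin l → ℤ) :
    chi (sgn F e) v = (-1) ^ ∑ i, e i * v i := by
  unfold chi sgn
  simp only [← zpow_mul]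
  induction (univ : Finset (Fin l)) using Finset.induction_on with
  | empty => simp
  | insert a s ha ih => rw [Finset.sum_insert ha, Finset.prod_insert ha, zpow_add, ih]

theorem neg_one_zpow_eq_one {F : Type*} [Field F] (h2 : (2 : F) ≠ 0) (a : ℤ) :
    (-1 : Fˣ) ^ a = 1 ↔ Even a := by
  have h : (-1 : Fˣ) ≠ 1 := by
    intro h
    have := congrArg Units.val h
    simp only [Units.val_neg, Units.val_one] at this
    exact h2 (by linear_combination -this)
  rcases Int.even_or_odd a with ha | ha
  · simp [ha.neg_one_zpow, ha]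
  · obtain ⟨k, rfl⟩ := ha
    rw [zpow_add, zpow_mul, zpow_one]
    simp [zpow_ofNat, h]

theorem neg_one_zpow_congr {F : Type*} [Field F] {a b : ℤ} (h : Even (a - b)) :
    (-1 : Fˣ) ^ a = (-1) ^ b := by
  rw [← sub_add_cancel a b, zpow_add, h.neg_one_zpow, one_mul]

theorem neg_one_zpow_eq_iff {F : Type*} [Field F] (h2 : (2 : F) ≠ 0) (a b : ℤ) :
    (-1 : Fˣ) ^ a = (-1) ^ b ↔ (Even a ↔ Even b) := by
  rw [← Int.even_sub, ← neg_one_zpow_eq_one h2, zpow_sub, mul_inv_eq_one]

namespace RD
variable {l n : ℕ} (R : RD l n)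

/-- Every parity vector is carried by simple reflections to `0`, `s` or `t`. -/
def Cover (s t : ℕ) : Prop := ∃ rk : ℕ → ℕ, ∀ k < 2 ^ l, k = 0 ∨ k = s ∨ k = t ∨
  ∃ i : Fin l, ∃ k' < 2 ^ l, rk k' < rk k ∧
    ∀ j, Even (bits l k j - R.A (R.sim i) j * bits l k i - bits l k' j)

open Classical in
noncomputable def npos (e : Fin l → ℤ) : ℕ := (R.posF.filter (R.ev e)).card

theorem act_sr_sgn {F : Type*} [Field F] (i : Fin l) (e : Fin l → ℤ) :
    R.act (R.sr i) (sgn F e) = sgn F fun j => e j - R.A (R.sim i) j * e i := by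
  funext j
  rw [act, chi_sgn, sgn, co_sr, rlin_apply, co_sim', co_sim', pair_apply]
  congr 1
  simp [Pi.single_apply, mul_sub, Finset.sum_sub_distrib, mul_comm]

end RD

namespace Sys

variable {l n : ℕ} {R : RD l n} {F : Type*} [Field F] {G : Type*} [Group G] (S : Sys R F G)

theorem card_cent_sgn [Fintype F] (hF : Odd (Fintype.card F)) (e : Fin l → ℤ) :
    Nat.card (Subgroup.centralizer ({S.h (sgn F e)} : Set G)) =
      Fintype.card F ^ R.npos e * ((Fintype.card F - 1) ^ l * R.poin (Fintype.card F) e []) := by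
  classical
  have h2 := two_ne_zero_of_odd hF
  have h1 : ∀ r, chi (sgn F e) (R.co r) = 1 ↔ R.ev e r := fun r => by
    rw [chi_sgn, neg_one_zpow_eq_one h2]; rfl
  rw [S.card_cent, RD.poin, Finset.mul_sum, Finset.mul_sum]
  refine Finset.sum_congr ?_ fun w _ => ?_
  · ext w
    simp only [mem_filter, mem_univ, true_and, RD.InGam]
    refine and_congr_right fun hw => ?_
    simp only [List.not_mem_nil, false_imp_iff, implies_true, and_true]
    constructor
    · intro h s
      have := R.chi_act hw (sgn F e) s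
      rw [h, chi_sgn, chi_sgn, neg_one_zpow_eq_iff h2] at this
      exact this.symm
    · intro h
      apply R.chi_ext
      intro s
      rw [R.chi_act hw, chi_sgn, chi_sgn, neg_one_zpow_eq_iff h2]
      exact h s
  · unfold RD.npos RD.invP
    congr 3
    · ext r; simp [h1]
    · congr 1
      ext r
      simp only [mem_filter, RD.mem_invF, h1, mem_univ, true_and, RD.Psi, List.not_mem_nil,
        false_imp_iff, implies_true, and_true]
      tauto

theorem isConj_act {w : Equiv.Perm (Fin n)} (hw : w ∈ R.W) (c : Fin l → Fˣ) :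
    IsConj (S.h (R.act w c)) (S.h c) := by
  obtain ⟨m, k, hm⟩ := S.exists_mon hw
  exact isConj_iff.2 ⟨m, by rw [← hm.h_mul, mul_inv_cancel_right]⟩

theorem h_sgn_sq (e : Fin l → ℤ) : S.h (sgn F e) * S.h (sgn F e) = 1 := by
  rw [← h_mul, ← S.h_one]
  congr 1
  funext j
  simp only [sgn, Pi.mul_apply, Pi.one_apply]
  rw [← mul_zpow]; simp

theorem orderOf_h_sgn (h2 : (2 : F) ≠ 0) {e : Fin l → ℤ} {j : Fin l} (hj : Odd (e j)) :
    orderOf (S.h (sgn F e)) = 2 := by
  haveI : Fact (Nat.Prime 2) := ⟨Nat.prime_two⟩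
  refine orderOf_eq_prime (by rw [sq, h_sgn_sq]) fun h => ?_
  rw [← S.h_one] at h
  have := congrFun (S.h_inj h) j
  rw [sgn, Pi.one_apply, neg_one_zpow_eq_one h2] at this
  exact Int.not_even_iff_odd.2 hj this

theorem inv_classes [Fintype F] (hF : Odd (Fintype.card F)) (hJ : R.HJ) {s t : ℕ}
    (hC : R.Cover s t) {u : G} (hu : orderOf u = 2) :
    IsConj u (S.h (sgn F (bits l s))) ∨ IsConj u (S.h (sgn F (bits l t))) := by
  classical
  have hu2 : u * u = 1 := by rw [← sq, ← hu, pow_orderOf_eq_one]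
  obtain ⟨d, hd⟩ := S.inv_conj_h hF hJ hu2
  have hdd : d * d = 1 := by
    apply S.h_inj
    rw [h_mul, h_one]
    obtain ⟨g, hg⟩ := isConj_iff.1 hd.symm
    calc S.h d * S.h d = g * (u * u) * g⁻¹ := by rw [← hg]; group
      _ = 1 := by rw [hu2]; group
  have hk : d = sgn F (bits l (Nat.ofBits fun j => decide (d j ≠ 1))) := by
    funext j
    have h1 : d j * d j = 1 := congrFun hdd j
    simp only [sgn, bits, Nat.testBit_ofBits_lt _ _ j.2, Fin.eta, decide_eq_true_eq]
    split_ifs with h
    · rw [zpow_one]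
      have h2 : ((d j : Fˣ) : F) * d j = 1 := by rw [← Units.val_mul, h1, Units.val_one]
      rcases mul_self_eq_one_iff.1 h2 with h3 | h3
      · exact absurd (Units.ext h3) h
      · exact Units.ext h3
    · simpa using h
  obtain ⟨rk, hrk⟩ := hC
  have key : ∀ m k, k < 2 ^ l → rk k < m → IsConj u (S.h (sgn F (bits l k))) →
      IsConj u (S.h (sgn F (bits l s))) ∨ IsConj u (S.h (sgn F (bits l t))) := by
    intro m
    induction m with
    | zero => intro k _ h; exact absurd h (Nat.not_lt_zero _)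
    | succ m ih =>
      intro k hk hm hc
      rcases hrk k hk with rfl | rfl | rfl | ⟨i, k', hk', hlt, hj⟩
      · have : sgn F (bits l 0) = 1 := by funext j; simp [sgn, bits]
        rw [this, h_one, isConj_one_left] at hc
        rw [hc, orderOf_one] at hu
        omega
      · exact Or.inl hc
      · exact Or.inr hc
      · refine ih k' hk' (by omega) (hc.trans ?_)
        have := (S.isConj_act (R.sr_mem i) (sgn F (bits l k))).symm
        rw [R.act_sr_sgn] at this
        convert this using 2
        funext j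
        exact (neg_one_zpow_congr (hj j)).symm
  rw [hk] at hd
  exact key _ _ (Nat.ofBits_lt_two_pow _) (Nat.lt_succ_self _) hd.symm

end Sys

end Cfsg.Agent.Chev
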