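import Cfsg.Agent.Lib.Chev.Conc
import Cfsg.Agent.Lib.Chev.Sign

/-! The Chevalley group of a checked datum is a `Sys`; checks for the Weyl group combinatorics. -/

set_option autoImplicit false

namespace Cfsg.Agent.Chev

open Finset Matrix Cfsg.Lie

theorem RD.ht_ind {l n : ℕ} (R : RD l n) (P : Fin n → Prop)
    (h : ∀ r, (∀ s, R.ht r < R.ht s → P s) → P r) (r : Fin n) : P r := by
  classical
  by_contra hc
  obtain ⟨m, hm, hmax⟩ := Finset.exists_max_image (univ.filter fun r => ¬ P r) R.ht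
    ⟨r, by simpa using hc⟩
  simp only [mem_filter, mem_univ, true_and] at hm hmax
  refine hm (h m fun s hs => ?_)
  by_contra h2
  exact absurd (hmax s h2) (not_le.2 hs)

namespace Tab

variable (T : Tab) (D : ChevalleyDatum)

noncomputable def chkRep (p : ℕ × ℕ × List Term) : Bool :=
  Nat.blt p.1 D.nroots && Nat.blt p.2.1 D.nroots &&
  (allL p.2.2 fun q => Nat.blt q.1 D.nroots && Nat.blt 0 q.2.1 && Nat.blt 0 q.2.2.1 &&
    allB D.rank fun j => ieq (T.fco D q.1 j) (q.2.1 * T.fco D p.1 j + q.2.2.1 * T.fco D p.2.1 j)) &&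
  eqW (T.col D) (D.rank + D.nroots) [(p.1, [(1, 0, 1)]), (p.2.1, [(0, 1, 1)])]
    (p.2.2.map (fun q => (q.1, [q.2])) ++ [(p.2.1, [(0, 1, 1)]), (p.1, [(1, 0, 1)])])

noncomputable def chkRed (reps : List (ℕ × ℕ × List Term)) : Bool :=
  allB D.nroots fun r => (anyB D.rank fun i => ilt (T.fca D i r) 0) || allB D.nroots fun s =>
    Nat.beq r s || Nat.beq r (T.fneg s) ||
    (anyB D.rank fun i => ieq (T.fca D i r) 0 && ilt (T.fca D i s) 0) ||
    anyL reps fun p => Nat.beq p.1 r && Nat.beq p.2.1 s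

noncomputable def chkMu (mu : ℕ) : Bool :=
  allB D.nroots fun g => ile (T.fht D g) 0 || (anyB D.rank fun i => Nat.beq g (T.fsim i)) ||
    force (look mu 16 g % 16) fun i => force (look mu 16 g / 16 % 16) fun k =>
    force (look mu 16 g / 256) fun s => Nat.blt i D.rank && Nat.blt s D.nroots && Nat.blt 0 k &&
      ilt 0 (T.fht D s) &&
      (allB D.rank fun j => ieq (T.fco D g j) (T.fco D s j + k * T.fco D (T.fsim i) j)) &&
      (decide ((T.col D (T.fsim i) (D.rank + s)).filter (fun q => q.1 = D.rank + g) =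
        [(D.rank + g, k, 1)]) ||
       decide ((T.col D (T.fsim i) (D.rank + s)).filter (fun q => q.1 = D.rank + g) =
        [(D.rank + g, k, -1)]))

variable {T D} {F : Type*} [Field F]

/-- root elements as elements of the Chevalley group -/
def OK.xG (h : T.OK D) (F : Type*) [Field F] (r : Fin D.nroots) (t : F) : D.group F :=
  ⟨⟨D.xMat F r t, D.xMat F r (-t), by rw [← h.x_add, add_neg_cancel, h.x_zero],
    by rw [← h.x_add, neg_add_cancel, h.x_zero]⟩, Subgroup.subset_closure ⟨r, t, rfl⟩⟩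

def rhoG (D : ChevalleyDatum) (F : Type*) [Field F] : D.group F →* Matrix D.Idx D.Idx F :=
  (Units.coeHom _).comp (D.group F).subtype

theorem rhoG_inj : Function.Injective (rhoG D F) := fun _ _ h => Subtype.ext (Units.ext h)

theorem OK.rho_xG (h : T.OK D) (r : Fin D.nroots) (t : F) : rhoG D F (h.xG F r t) = D.xMat F r t :=
  rfl

theorem evC_filter {l n : ℕ} (t : F) (c : List Mono) (a : Ix l n) :
    evC l n t c a = evC l n t (c.filter fun q => q.1 = code l n a) a := by
  induction c with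
  | nil => rfl
  | cons q c ih =>
    rw [List.filter_cons]
    by_cases h : q.1 = code l n a
    · rw [if_pos (by simpa using h), evC_cons, evC_cons, Pi.add_apply, Pi.add_apply, ih]
    · rw [if_neg (by simpa using h), evC_cons, Pi.add_apply, ih]
      simp [bas, Ne.symm h]

theorem OK.rep_spec (h : T.OK D) {p : ℕ × ℕ × List Term} (hp : T.chkRep D p = true)
    (r s : Fin D.nroots) (h1 : p.1 = r) (h2 : p.2.1 = s) (t u : F) :
    h.xG F r t * h.xG F s u * (h.xG F r t)⁻¹ * (h.xG F s u)⁻¹ ∈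
      Subgroup.closure (commSet (rd h.hR) (h.xG F) r s) := by
  simp only [chkRep, Bool.and_eq_true, Nat.blt_eq] at hp
  obtain ⟨⟨-, a3⟩, a4⟩ := hp
  have a5 := allL_spec a3
  simp only [Bool.and_eq_true, Nat.blt_eq] at a5
  have a6 := eqW_spec (T.col D) (xN D F) t u (fun q hq => by
    refine h.colN ?_
    simp only [List.cons_append, List.nil_append, List.mem_cons, List.mem_append, List.mem_map,
      List.not_mem_nil, or_false] at hq
    rcases hq with rfl | rfl | ⟨q, hq, rfl⟩ | rfl | rfl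
    · exact h1 ▸ r.2
    · exact h2 ▸ s.2
    · exact (a5 q hq).1.1.1
    · exact h2 ▸ s.2
    · exact h1 ▸ r.2) a4
  have key : ∀ L : List Term, (∀ q ∈ L, q ∈ p.2.2) →
      ∃ g ∈ Subgroup.closure (commSet (rd h.hR) (h.xG F) r s), rhoG D F g =
        ((L.map fun q => (q.1, [q.2])).map fun q => xN D F q.1 (evP t u q.2)).prod := by
    intro L
    induction L with
    | nil => intro _; exact ⟨1, one_mem _, by simp⟩
    | cons q L ih =>
      intro hL
      obtain ⟨g, hg, e⟩ := ih fun q hq => hL q (List.mem_cons_of_mem _ hq)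
      obtain ⟨⟨⟨b1, b2⟩, b3⟩, b4⟩ := a5 q (hL q List.mem_cons_self)
      refine ⟨h.xG F ⟨q.1, b1⟩ (evP t u [q.2]) * g, mul_mem (Subgroup.subset_closure
        ⟨⟨q.1, b1⟩, _, q.2.1, q.2.2.1, b2, b3, ?_, rfl⟩) hg, ?_⟩
      · funext j
        have := (ieq_iff _ _).1 (allB_spec b4 j j.2)
        rw [h1, h2] at this
        exact this
      · rw [map_mul, e, h.rho_xG, ← xN_coe]; simp
  obtain ⟨g, hg, e⟩ := key p.2.2 fun _ hq => hq
  rw [List.map_append, List.prod_append, ← e, h1, h2] at a6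
  have : h.xG F r t * h.xG F s u = g * (h.xG F s u * h.xG F r t) := by
    apply rhoG_inj
    simpa [evP, xN_coe, h.rho_xG] using a6
  rw [this]
  simpa [mul_assoc] using hg

/-- The Chevalley group of a checked datum. -/
noncomputable def OK.sys (h : T.OK D) (reps : List (ℕ × ℕ × List Term)) (mu : ℕ)
    (h1 : allL reps (T.chkRep D) = true) (h2 : T.chkRed D reps = true) (h3 : T.chkMu D mu = true)
    (F : Type*) [Field F] : Sys (rd h.hR) F (D.group F) where
  ρ := rhoG D F
  inj := rhoG_inj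
  x := h.xG F
  gen := by
    refine eq_top_iff.2 (le_trans (le_of_eq (Subgroup.closure_closure_coe_preimage).symm)
      (Subgroup.closure_mono ?_))
    rintro g ⟨r, t, hg⟩
    exact ⟨r, t, rhoG_inj hg⟩
  x_add r t u := rhoG_inj (by rw [map_mul]; exact h.x_add r t u)
  tri r t a b hne := (h.tri r t a b hne).2
  tor := h.tor
  hv r := hvF T D F r
  hv_sim i := by
    funext a
    rcases a with j | s
    · simp only [hvF, Sum.elim_inl, rd, ((chkD_spec h.hD).2 i).2 j, Pi.single_apply, Sum.inl.injEq]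
      split_ifs <;> simp
    · simp [hvF]
  hv_inr _ _ := rfl
  colneg := h.colneg
  η i s := ⟨T.feta D i s, T.feta D i s, by rw [← Int.cast_mul, feta_sq, Int.cast_one],
    by rw [← Int.cast_mul, feta_sq, Int.cast_one]⟩
  η_neg i s := Units.ext (by
    have := ((h.chkN_spec (F := F) i).2.2.1 s).2.1
    change (T.feta D i s : F) * (T.feta D i (T.fneg s) : F) = 1
    rw [← this, ← Int.cast_mul, feta_sq, Int.cast_one])
  η_sim i := Units.ext (by
    change (T.feta D i (T.fsim i) : F) = -1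
    rw [(h.chkN_spec (F := F) i).2.2.2.2]; simp)
  nmon i s := ((h.chkN_spec (F := F) i).2.2.1 s).1
  nconj i s t := rhoG_inj (h.nconj i s t)
  comm0 r := by
    refine (rd h.hR).ht_ind (fun r => ∀ s, r ≠ s → r ≠ (rd h.hR).neg s → ∃ w ∈ (rd h.hR).W,
      ∀ t u : F, h.xG F (w r) t * h.xG F (w s) u * (h.xG F (w r) t)⁻¹ * (h.xG F (w s) u)⁻¹ ∈
        Subgroup.closure (commSet (rd h.hR) (h.xG F) (w r) (w s))) (fun r ih => ?_) r
    have hup : ∀ (i : Fin D.rank) (s : Fin D.nroots), T.fca D i s < 0 →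
        (rd h.hR).ht s < (rd h.hR).ht ((rd h.hR).sr i s) := by
      intro i s hs
      rw [((rd h.hR).isRefl_sr i).ht, rd_ca, RD.ht_sim]; omega
    have htr : ∀ (i : Fin D.rank) (s : Fin D.nroots), r ≠ s → r ≠ (rd h.hR).neg s →
        (rd h.hR).sr i r ≠ (rd h.hR).sr i s ∧
        (rd h.hR).sr i r ≠ (rd h.hR).neg ((rd h.hR).sr i s) := by
      intro i s b1 b2
      rw [← RD.W_neg ((rd h.hR).sr_mem i)]
      exact ⟨fun e => b1 (((rd h.hR).sr i).injective e), fun e => b2 (((rd h.hR).sr i).injective e)⟩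
    have a := allB_spec h2 r r.2
    rw [Bool.or_eq_true] at a
    rcases a with a | a
    · obtain ⟨i, hi, a⟩ := anyB_spec a
      intro s b1 b2
      obtain ⟨w, hw, hc⟩ := ih _ (hup ⟨i, hi⟩ r ((ilt_iff _ _).1 a)) _ (htr ⟨i, hi⟩ s b1 b2).1
        (htr ⟨i, hi⟩ s b1 b2).2
      exact ⟨w * (rd h.hR).sr ⟨i, hi⟩, mul_mem hw ((rd h.hR).sr_mem _), hc⟩
    · intro s
      refine (rd h.hR).ht_ind (fun s => r ≠ s → r ≠ (rd h.hR).neg s → ∃ w ∈ (rd h.hR).W,
        ∀ t u : F, h.xG F (w r) t * h.xG F (w s) u * (h.xG F (w r) t)⁻¹ * (h.xG F (w s) u)⁻¹ ∈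
          Subgroup.closure (commSet (rd h.hR) (h.xG F) (w r) (w s))) (fun s ih2 b1 b2 => ?_) s
      have b := allB_spec a s s.2
      simp only [Bool.or_eq_true, Nat.beq_eq] at b
      rcases b with ((b | b) | b) | b
      · exact absurd (Fin.ext b) b1
      · exact absurd (Fin.ext b) b2
      · obtain ⟨i, hi, b⟩ := anyB_spec b
        simp only [Bool.and_eq_true, ieq_iff, ilt_iff] at b
        have e : (rd h.hR).sr ⟨i, hi⟩ r = r :=
          ((rd h.hR).isRefl_sr _).fix (by rw [rd_ca]; exact b.1)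
        have c := htr ⟨i, hi⟩ s b1 b2
        rw [e] at c
        obtain ⟨w, hw, hc⟩ := ih2 _ (hup ⟨i, hi⟩ s b.2) c.1 c.2
        refine ⟨w * (rd h.hR).sr ⟨i, hi⟩, mul_mem hw ((rd h.hR).sr_mem _), ?_⟩
        rw [Equiv.Perm.mul_apply, Equiv.Perm.mul_apply, e]
        exact hc
      · obtain ⟨p, hp, b⟩ := anyL_spec b
        simp only [Bool.and_eq_true, Nat.beq_eq] at b
        exact ⟨1, one_mem _, h.rep_spec (allL_spec h1 p hp) r s b.1 b.2⟩
  mult g hg := by
    have a := allB_spec h3 g g.2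
    simp only [Bool.or_eq_true, ile_iff, force_eq, Bool.and_eq_true, Nat.blt_eq, ilt_iff,
      decide_eq_true_eq] at a
    rcases a with (a | a) | ⟨⟨⟨⟨⟨a1, a2⟩, a3⟩, a4⟩, a5⟩, a6⟩
    · rw [← rd_ht h.hR] at a
      exact absurd hg (not_lt.2 a)
    · obtain ⟨i, hi, a⟩ := anyB_spec a
      exact Or.inl ⟨⟨i, hi⟩, Fin.ext (Nat.eq_of_beq_eq_true a)⟩
    refine Or.inr ⟨⟨_, a1⟩, ⟨_, a2⟩, _, a3, by rw [RD.pos, rd_ht]; exact a4, ?_, ?_⟩
    · funext j
      exact (ieq_iff _ _).1 (allB_spec a5 j j.2)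
    · have key : ∀ e : ℤ, (T.col D (T.fsim (look mu 16 g % 16)) (D.rank + look mu 16 g / 256)).filter
          (fun q => q.1 = D.rank + g) = [(D.rank + g, look mu 16 g / 16 % 16, e)] → ∀ t : F,
          D.xMat F ((rd h.hR).sim ⟨_, a1⟩) t (Sum.inr g) (Sum.inr ⟨_, a2⟩) =
            e * t ^ (look mu 16 g / 16 % 16) := by
        intro e he t
        rw [h.entry, evC_filter]
        erw [he]
        rw [evC_cons, evC_nil, bas_inr]
        simp
      rcases a6 with a6 | a6
      · exact ⟨((1 : ℤ) : F), by simp, key 1 a6⟩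
      · exact ⟨((-1 : ℤ) : F), by simp, key (-1) a6⟩

variable (T D)

noncomputable def chkJ : Bool :=
  allB (2 ^ D.rank) fun m => Nat.beq m 0 ||
    (anyB D.rank fun i => m.testBit i && anyB D.rank fun j => m.testBit j &&
      ieq (T.fca D j (T.fsim i) % 2) 1) ||
    ((allB D.rank fun i => !m.testBit i || allB D.rank fun j => !m.testBit j || Nat.beq i j ||
      ieq (T.fca D i (T.fsim j)) 0) &&
    anyB D.rank fun b => m.testBit b && anyB D.nroots fun g => ieq (T.fca D b g % 2) 1 &&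
      allB D.rank fun j => !m.testBit j || Nat.beq j b || ieq (T.fca D j g) 0)

def bitI (k j : ℕ) : ℤ := cond (k.testBit j) 1 0

noncomputable def chkCov (s t rk pa : ℕ) : Bool :=
  allB (2 ^ D.rank) fun k => Nat.beq k 0 || Nat.beq k s || Nat.beq k t ||
    force (look pa 12 k % 16) fun i => force (look pa 12 k / 16) fun k' =>
      Nat.blt i D.rank && Nat.blt k' (2 ^ D.rank) && Nat.blt (look rk 8 k') (look rk 8 k) &&
      allB D.rank fun j => ieq ((bitI k j - T.fA D (T.fsim i) j * bitI k i - bitI k' j) % 2) 0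

noncomputable def evB (k r : ℕ) : Bool := ieq ((sumB D.rank fun i => bitI k i * T.fco D r i) % 2) 0

noncomputable def psiB (k : ℕ) (L : List ℕ) (r : ℕ) : Bool :=
  T.evB D k r && allL L fun a => ieq (T.fpr D a r) 0

noncomputable def orbB (k : ℕ) (L : List ℕ) (a m : ℕ) : Bool :=
  (allL L fun b => ieq (T.fpr D b m) (T.fpr D b a)) && ieq (T.flen m) (T.flen a) &&
    (T.evB D k m == T.evB D k a)

noncomputable def chkStep (k : ℕ) (L : List ℕ) (c : ℕ × ℕ × ℕ × ℕ × List ℕ) : Bool :=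
  Nat.blt c.1 D.nroots &&
  (allB D.nroots fun r => (c.2.1.testBit r == (ilt 0 (T.fht D r) && T.psiB D k L r)) &&
    (c.2.2.1.testBit r == c.2.1.testBit (T.fneg r)) &&
    (c.2.2.2.1.testBit r == T.orbB D k L c.1 r) &&
    (!c.2.1.testBit r || ile 0 (T.fpr D c.1 r)) &&
    (!c.2.2.2.1.testBit r || Nat.beq r c.1 ||
      anyB D.nroots fun s => c.2.1.testBit s && ilt (T.fpr D s r) 0)) &&
  decide (((List.range D.nroots).filter c.2.2.2.1.testBit).map
    (fun m => cntB D.nroots fun g => c.2.2.1.testBit g && ilt 0 (T.fpr D m g)) = c.2.2.2.2)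

noncomputable def chkEnd (k : ℕ) (L : List ℕ) : Bool :=
  allB D.rank fun i => allB D.nroots fun m => Nat.beq m (T.fsim i) || !T.orbB D k L (T.fsim i) m

noncomputable def chkChain (k : ℕ) : List ℕ → List (ℕ × ℕ × ℕ × ℕ × List ℕ) → Bool
  | L, [] => T.chkEnd D k L
  | L, c :: C => T.chkStep D k L c && chkChain k (c.1 :: L) C

variable {T D}

theorem bitI_eq (l k : ℕ) (j : Fin l) : bitI k j = bits l k j := by
  unfold bitI bits
  cases k.testBit j <;> rfl

theorem hj_of_chk (h : T.chkR D = true) (hJ : T.chkJ D = true) : (rd h).HJ := by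
  intro J hne hev
  have hb : ∀ j : Fin D.rank, (Nat.ofBits fun j => decide (j ∈ J)).testBit j = decide (j ∈ J) :=
    fun j => Nat.testBit_ofBits_lt _ _ j.2
  have a := allB_spec hJ _ (Nat.ofBits_lt_two_pow fun j => decide (j ∈ J))
  set m := Nat.ofBits fun j => decide (j ∈ J)
  simp only [Bool.or_eq_true, Bool.and_eq_true, Nat.beq_eq] at a
  rcases a with (a | a) | ⟨a1, a2⟩
  · obtain ⟨j, hj⟩ := hne
    have := hb j
    rw [a] at this
    simp [hj] at this
  · obtain ⟨i, hi, a⟩ := anyB_spec a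
    rw [Bool.and_eq_true] at a
    obtain ⟨j, hj, b⟩ := anyB_spec a.2
    rw [Bool.and_eq_true, ieq_iff] at b
    have := hev ⟨i, hi⟩ (by simpa using (hb ⟨i, hi⟩).symm.trans a.1) ⟨j, hj⟩
      (by simpa using (hb ⟨j, hj⟩).symm.trans b.1)
    rw [rd_ca, Int.even_iff] at this
    have e : (((rd h).sim ⟨i, hi⟩ : Fin D.nroots) : ℕ) = T.fsim i := rfl
    rw [e] at this
    simp only at this
    omega
  · constructor
    · intro i hi j hj hij
      have b := allB_spec a1 i i.2
      simp only [hb, hi, decide_true, Bool.not_true, Bool.false_or] at b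
      have c := allB_spec b j j.2
      simp only [hb, hj, decide_true, Bool.not_true, Bool.false_or, Bool.or_eq_true, Nat.beq_eq,
        ieq_iff, Fin.val_inj, hij, false_or] at c
      rw [rd_ca]; exact c
    · obtain ⟨b, hb', a⟩ := anyB_spec a2
      rw [Bool.and_eq_true] at a
      obtain ⟨g, hg, c⟩ := anyB_spec a.2
      rw [Bool.and_eq_true, ieq_iff] at c
      refine ⟨⟨b, hb'⟩, by simpa using (hb ⟨b, hb'⟩).symm.trans a.1, ⟨g, hg⟩, ?_, fun j hj hjb => ?_⟩
      · rw [rd_ca, Int.odd_iff]; exact c.1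
      · have d := allB_spec c.2 j j.2
        have hjb' : (j : ℕ) ≠ b := fun e => hjb (Fin.ext e)
        simp only [hb, hj, decide_true, Bool.not_true, Bool.false_or, Bool.or_eq_true, Nat.beq_eq,
          ieq_iff, hjb', false_or] at d
        rw [rd_ca]; exact d

theorem cover_of_chk (h : T.chkR D = true) {s t rk pa : ℕ} (hC : T.chkCov D s t rk pa = true) :
    (rd h).Cover s t := by
  refine ⟨look rk 8, fun k hk => ?_⟩
  have a := allB_spec hC k hk
  simp only [Bool.or_eq_true, Nat.beq_eq, force_eq, Bool.and_eq_true, Nat.blt_eq] at a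
  rcases a with ((a | a) | a) | ⟨⟨⟨a1, a2⟩, a3⟩, a4⟩
  · exact Or.inl a
  · exact Or.inr (Or.inl a)
  · exact Or.inr (Or.inr (Or.inl a))
  refine Or.inr (Or.inr (Or.inr ⟨⟨_, a1⟩, _, a2, a3, fun j => ?_⟩))
  rw [Int.even_iff, ← bitI_eq, ← bitI_eq, ← bitI_eq]
  exact (ieq_iff _ _).1 (allB_spec a4 j j.2)

def finL (n : ℕ) (L : List ℕ) : List (Fin n) := L.filterMap fun a => if h : a < n then some ⟨a, h⟩ else none

theorem finL_cons {n a : ℕ} (h : a < n) (L : List ℕ) : finL n (a :: L) = ⟨a, h⟩ :: finL n L := by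
  simp [finL, h]

theorem allL_iff {α : Type} (L : List α) (f : α → Bool) : allL L f = true ↔ ∀ a ∈ L, f a = true := by
  refine ⟨allL_spec, fun h => ?_⟩
  induction L with
  | nil => rfl
  | cons a L ih =>
    change (f a && allL L f) = true
    rw [h a List.mem_cons_self, ih fun b hb => h b (List.mem_cons_of_mem _ hb)]; rfl

theorem forall_finL {n : ℕ} {L : List ℕ} (hL : ∀ a ∈ L, a < n) (P : ℕ → Prop) :
    (∀ a ∈ finL n L, P a) ↔ ∀ a ∈ L, P a := by
  induction L with
  | nil => simp [finL]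
  | cons a L ih =>
    rw [finL_cons (hL a List.mem_cons_self)]
    simp only [List.mem_cons, forall_eq_or_imp, ih fun b hb => hL b (List.mem_cons_of_mem _ hb)]

theorem evB_iff (h : T.chkR D = true) (k : ℕ) (r : Fin D.nroots) :
    T.evB D k r = true ↔ (rd h).ev (bits D.rank k) r := by
  rw [evB, ieq_iff, RD.ev, Int.even_iff, sumB_eq]
  simp only [bitI_eq]; rfl

theorem psiB_iff (h : T.chkR D = true) (k : ℕ) {L : List ℕ} (hL : ∀ a ∈ L, a < D.nroots)
    (r : Fin D.nroots) : T.psiB D k L r = true ↔ (rd h).Psi (bits D.rank k) (finL _ L) r := by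
  rw [psiB, Bool.and_eq_true, evB_iff h, allL_iff, RD.Psi]
  simp only [rd_pair, ieq_iff]
  rw [forall_finL hL fun a => T.fpr D a r = 0]

theorem orbB_iff (h : T.chkR D = true) (k : ℕ) {L : List ℕ} (hL : ∀ a ∈ L, a < D.nroots)
    (a m : Fin D.nroots) : T.orbB D k L a m = true ↔ (rd h).Orb (bits D.rank k) (finL _ L) a m := by
  rw [orbB, Bool.and_eq_true, Bool.and_eq_true, allL_iff, RD.Orb, ← evB_iff h, ← evB_iff h]
  simp only [rd_pair, ieq_iff, beq_iff_eq]
  rw [forall_finL hL fun b => T.fpr D b m = T.fpr D b a, ← Bool.eq_iff_iff]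
  exact ⟨fun x => ⟨x.2, x.1.2, x.1.1⟩, fun x => ⟨⟨x.2.2, x.2.1⟩, x.1⟩⟩

theorem poin_of_step (h : T.chkR D = true) (q k : ℕ) {L : List ℕ} (hL : ∀ a ∈ L, a < D.nroots)
    {c : ℕ × ℕ × ℕ × ℕ × List ℕ} (hc : T.chkStep D k L c = true) : c.1 < D.nroots ∧
    (rd h).poin q (bits D.rank k) (finL _ L) =
      (c.2.2.2.2.map (q ^ ·)).sum * (rd h).poin q (bits D.rank k) (finL _ (c.1 :: L)) := by
  classical
  simp only [chkStep, Bool.and_eq_true, Nat.blt_eq, decide_eq_true_eq] at hc
  obtain ⟨⟨a1, a2⟩, a3⟩ := hc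
  have b := fun r : Fin D.nroots => allB_spec a2 r r.2
  simp only [Bool.and_eq_true, beq_iff_eq, Bool.or_eq_true, Bool.not_eq_true', ile_iff,
    Nat.beq_eq] at b
  have hP : ∀ r : Fin D.nroots, c.2.1.testBit r = true ↔
      (rd h).pos r ∧ (rd h).Psi (bits D.rank k) (finL _ L) r := fun r => by
    rw [(b r).1.1.1.1, Bool.and_eq_true, ilt_iff, psiB_iff h k hL, RD.pos, rd_ht]
  have hN : ∀ r : Fin D.nroots, c.2.2.1.testBit r = true ↔
      ¬ (rd h).pos r ∧ (rd h).Psi (bits D.rank k) (finL _ L) r := fun r => by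
    rw [(b r).1.1.1.2, ← RD.pos_neg, ← RD.psi_neg]; exact hP ((rd h).neg r)
  have hO : ∀ r : Fin D.nroots, c.2.2.2.1.testBit r = true ↔
      (rd h).Orb (bits D.rank k) (finL _ L) ⟨c.1, a1⟩ r := fun r => by
    rw [(b r).1.1.2]; exact orbB_iff h k hL ⟨c.1, a1⟩ r
  refine ⟨a1, ?_⟩
  rw [finL_cons a1, RD.poin_step q ⟨c.1, a1⟩]
  · congr 1
    rw [← a3, List.map_map, ← List.sum_toFinset _ (List.nodup_range.filter _)]
    symm
    refine Finset.sum_bij' (fun m hm => ⟨m, by
        simp only [List.mem_toFinset, List.mem_filter, List.mem_range] at hm; exact hm.1⟩)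
      (fun m _ => m) ?_ ?_ (fun _ _ => rfl) (fun _ _ => rfl) ?_
    · intro m hm
      simp only [List.mem_toFinset, List.mem_filter, List.mem_range] at hm
      simp only [mem_filter, mem_univ, true_and]
      exact (hO ⟨m, hm.1⟩).1 hm.2
    · intro m hm
      simp only [mem_filter, mem_univ, true_and] at hm
      simp only [List.mem_toFinset, List.mem_filter, List.mem_range]
      exact ⟨m.2, (hO m).2 hm⟩
    · intro m hm
      simp only [Function.comp, cntB_eq, RD.expo]
      congr 2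
      ext g
      simp only [mem_filter, mem_univ, true_and, Bool.and_eq_true, hN, ilt_iff, rd_pair, and_assoc]
  · intro r h1 h2
    rw [rd_pair]
    exact (b r).1.2.resolve_left (by rw [(hP r).2 ⟨h1, h2⟩]; simp)
  · intro m hm
    rcases (b m).2 with (d | d) | d
    · rw [(hO m).2 hm] at d; simp at d
    · exact Or.inl (Fin.ext d)
    · obtain ⟨s, hs, d⟩ := anyB_spec d
      rw [Bool.and_eq_true, ilt_iff] at d
      exact Or.inr ⟨⟨s, hs⟩, ((hP ⟨s, hs⟩).1 d.1).1, ((hP ⟨s, hs⟩).1 d.1).2, by rw [rd_pair]; exact d.2⟩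

theorem poin_of_chain (h : T.chkR D = true) (q k : ℕ) (C : List (ℕ × ℕ × ℕ × ℕ × List ℕ)) :
    ∀ {L : List ℕ}, (∀ a ∈ L, a < D.nroots) → T.chkChain D k L C = true →
    (rd h).poin q (bits D.rank k) (finL _ L) = (C.map fun c => (c.2.2.2.2.map (q ^ ·)).sum).prod := by
  induction C with
  | nil =>
    intro L hL hc
    refine RD.poin_end q fun i m hm => ?_
    have a := allB_spec (allB_spec hc i i.2) m m.2
    simp only [Bool.or_eq_true, Nat.beq_eq, Bool.not_eq_true'] at a
    rcases a with a | a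
    · exact Fin.ext a
    · have := (orbB_iff h k hL ((rd h).sim i) m).2 hm
      erw [a] at this
      simp at this
  | cons c C ih =>
    intro L hL hc
    rw [chkChain, Bool.and_eq_true] at hc
    obtain ⟨h1, h2⟩ := poin_of_step h q k hL hc.1
    rw [h2, ih (fun a ha => by
      rcases List.mem_cons.1 ha with rfl | ha
      · exact h1
      · exact hL a ha) hc.2, List.map_cons, List.prod_cons]

theorem npos_eq (h : T.chkR D = true) (k : ℕ) :
    (rd h).npos (bits D.rank k) = cntB D.nroots fun r => ilt 0 (T.fht D r) && T.evB D k r := by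
  rw [cntB_eq, RD.npos]
  congr 1
  ext r
  simp only [mem_filter, RD.mem_posF, mem_univ, true_and, Bool.and_eq_true, ilt_iff, evB_iff h,
    RD.pos, rd_ht]

end Tab

end Cfsg.Agent.Chev
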