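import Cfsg.Agent.Lib.Chev.Tab

/-! From the table checks to the matrix identities for the root elements. -/

set_option autoImplicit false

namespace Cfsg.Agent.Chev

open Finset Matrix Cfsg.Lie

namespace Tab

variable (T : Tab) (D : ChevalleyDatum)

def wN (i : ℕ) : List (ℕ × List Mono) :=
  [(T.fsim i, [(0, 0, 1)]), (T.fneg (T.fsim i), [(0, 0, -1)]), (T.fsim i, [(0, 0, 1)])]

noncomputable def chkAdd (r : ℕ) : Bool :=
  eqW (T.col D) (D.rank + D.nroots) [(r, [(1, 0, 1), (0, 1, 1)])] [(r, [(1, 0, 1)]), (r, [(0, 1, 1)])]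

/-- checks on the representative of the `i`-th simple reflection -/
noncomputable def chkN (i : ℕ) : Bool :=
  T.chkAdd D (T.fsim i) && T.chkAdd D (T.fneg (T.fsim i)) &&
  (allB D.nroots fun s => eqV (wapp (T.col D) (T.wN i) [(D.rank + s, 0, 0, 1)])
    [(D.rank + T.frs D i s, 0, 0, T.feta D i s)] &&
    ieq (T.feta D i s) (T.feta D i (T.fneg s)) &&
    (allB D.rank fun j => ieq (T.fca D j s)
        (T.fca D j (T.frs D i s) - T.fA D (T.fsim j) i * T.fca D i (T.frs D i s)) &&
      ieq (T.fcor D (T.frs D i s) j) (T.fcor D s j - cond (Nat.beq j i)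
        (sumB D.rank fun k => T.fcor D s k * T.fA D (T.fsim k) i) 0))) &&
  (allB D.rank fun j => eqV (wapp (T.col D) (T.wN i) [(j, 0, 0, 1)])
    [(j, 0, 0, 1), (i, 0, 0, -T.fA D (T.fsim j) i)]) &&
  ieq (T.feta D i (T.fsim i)) (-1)

def trans (i : ℕ) (es : ℤ) : ℤ → List (ℕ × ℤ) → List (ℕ × ℤ)
  | _, [] => []
  | σ, p :: L => (T.frs D i p.1, p.2 * T.feta D i p.1 * σ) :: trans i es (σ * es) L

noncomputable def chkC (i : ℕ) : Bool :=
  allB D.nroots fun s => force (look T.rows (Nat.mul T.K D.nroots) (T.frs D i s)) fun c =>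
    forceI (T.feta D i s) fun es => allL (row D s) fun e =>
      decide (force (look c T.K (T.frs D i e.1)) (dec 3) =
        T.trans D i es (T.feta D i e.1 * es) e.2.toList)

/-- all the checks on the root elements -/
structure OK : Prop where
  hR : T.chkR D = true
  hD : T.chkD D = true
  hM : allB D.nroots (T.chkM D) = true
  hW : allB D.nroots (T.chkW D) = true
  hN : ∀ i < D.rank, T.chkN D i = true
  hC : ∀ i < D.rank, T.chkC D i = true

variable {T D} {F : Type*} [Field F]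

theorem feta_sq (i s : ℕ) : T.feta D i s * T.feta D i s = 1 := by
  unfold feta
  cases Nat.testBit T.eta _ <;> simp

theorem OK.col (h : T.OK D) (r : Fin D.nroots) (t : F) (b : ℕ) :
    D.xMat F r t *ᵥ bas D.rank D.nroots F b = evC D.rank D.nroots t (T.col D r b) :=
  col_spec h.hD r (allB_spec h.hM r r.2) t b

theorem OK.fL_mem (h : T.OK D) (r u : Fin D.nroots) :
    ∀ q ∈ zk D.rank (T.fL D r u) 1, 0 < q.2.1 ∧ ∃ v : Fin D.nroots, q.1 = D.rank + v ∧
      (rd h.hR).co v = (rd h.hR).co u + (q.2.1 : ℤ) • (rd h.hR).co r := by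
  intro q hq
  obtain ⟨h1, h2⟩ := chkM_spec (allB_spec h.hM r r.2)
  rcases (h2 u u.2).2 with h3 | ⟨e, he, h3⟩
  · rw [h3] at hq; simp [zk] at hq
  have h4 := allL_spec (allL_spec (allB_spec h.hW r r.2) e he) q (by
    rw [← (h1 e he).2, h3]; exact hq)
  simp only [Bool.and_eq_true, Nat.ble_eq, Nat.blt_eq, force_eq] at h4
  obtain ⟨⟨⟨a1, a2⟩, a3⟩, a4⟩ := h4
  refine ⟨a3, ⟨q.1 - D.rank, by omega⟩, by simp only; omega, ?_⟩
  funext j
  have := (ieq_iff _ _).1 (allB_spec a4 j j.2)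
  rw [h3] at this
  exact this

theorem OK.col_wt (h : T.OK D) (r : Fin D.nroots) (b : Ix D.rank D.nroots) :
    ∃ rest, T.col D r (code _ _ b) = (code _ _ b, 0, 1) :: rest ∧ ∀ q ∈ rest, 0 < q.2.1 ∧
      ∃ a, code _ _ a = q.1 ∧ (rd h.hR).wt a = (rd h.hR).wt b + (q.2.1 : ℤ) • (rd h.hR).co r := by
  rcases b with i | u
  · refine ⟨_, col_inl r i, fun q hq => ?_⟩
    rw [List.mem_singleton] at hq
    subst hq
    exact ⟨Nat.one_pos, Sum.inr r, rfl, by simp [RD.wt]⟩
  by_cases hu : u = r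
  · subst hu
    exact ⟨[], col_self u, by simp⟩
  by_cases hu' : (u : ℕ) = T.fneg r
  · have hn : u = (rd h.hR).neg r := Fin.ext hu'
    refine ⟨_, col_neg r u hu hu', fun q hq => ?_⟩
    rcases List.mem_cons.1 hq with rfl | hq
    · refine ⟨Nat.two_pos, Sum.inr r, rfl, ?_⟩
      simp only [RD.wt, Sum.elim_inr, hn, RD.co_neg', Nat.cast_ofNat, two_smul]; abel
    · obtain ⟨i, hi, rfl⟩ := List.mem_map.1 hq
      refine ⟨Nat.one_pos, Sum.inl ⟨i, List.mem_range.1 hi⟩, rfl, ?_⟩
      simp only [RD.wt, Sum.elim_inr, Sum.elim_inl, hn, RD.co_neg', Nat.cast_one, one_smul]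
      rw [neg_add_cancel]
  · refine ⟨_, col_gen r u hu hu', fun q hq => ?_⟩
    obtain ⟨h1, v, h2, h3⟩ := h.fL_mem r u q hq
    exact ⟨h1, Sum.inr v, h2.symm, h3⟩

theorem OK.entry (h : T.OK D) (r : Fin D.nroots) (t : F) (a b : Ix D.rank D.nroots) :
    D.xMat F r t a b = evC D.rank D.nroots t (T.col D r (code _ _ b)) a := by
  rw [← h.col, bas_code, mulVec_single_one]; rfl

theorem OK.tri (h : T.OK D) (r : Fin D.nroots) (t : F) (a b : Ix D.rank D.nroots)
    (hne : (D.xMat F r t - 1) a b ≠ 0) :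
    t ≠ 0 ∧ ∃ k : ℕ, 0 < k ∧ (rd h.hR).wt a = (rd h.hR).wt b + (k : ℤ) • (rd h.hR).co r := by
  obtain ⟨rest, h1, h2⟩ := h.col_wt r b
  rw [Matrix.sub_apply, h.entry, h1, evC_cons, bas_code] at hne
  have h3 : evC D.rank D.nroots t rest a ≠ 0 := by
    simpa [Pi.single_apply, Matrix.one_apply] using hne
  clear hne h1
  induction rest with
  | nil => exact absurd rfl h3
  | cons q rest ih =>
    by_cases h4 : evC D.rank D.nroots t rest a = 0
    · rw [evC_cons, Pi.add_apply, h4, add_zero, Pi.smul_apply, smul_eq_mul] at h3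
      obtain ⟨h5, a', h6, h7⟩ := h2 q List.mem_cons_self
      have h8 := right_ne_zero_of_mul h3
      rw [← h6, bas_code] at h8
      have h9 : a = a' := by
        by_contra h9
        simp [h9] at h8
      subst h9
      refine ⟨?_, _, h5, h7⟩
      rintro rfl
      simp [h5.ne'] at h3
    · exact ih (fun q hq => h2 q (List.mem_cons_of_mem _ hq)) h4

theorem OK.x_zero (h : T.OK D) (r : Fin D.nroots) : D.xMat F r 0 = 1 := by
  ext a b
  by_contra hne
  exact (h.tri r (0 : F) a b (by rwa [Matrix.sub_apply, sub_ne_zero])).1 rfl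

theorem OK.tor (h : T.OK D) (c : Fin D.rank → Fˣ) (r : Fin D.nroots) (t : F) :
    (rd h.hR).hmat c * D.xMat F r t =
      D.xMat F r ((chi c ((rd h.hR).co r) : F) * t) * (rd h.hR).hmat c := by
  ext a b
  rw [RD.hmat, diagonal_mul, mul_diagonal, h.entry, h.entry]
  obtain ⟨rest, h1, h2⟩ := h.col_wt r b
  rw [h1, evC_cons, evC_cons, bas_code, Pi.add_apply, Pi.add_apply, mul_add, add_mul]
  congr 1
  · by_cases hab : a = b
    · subst hab; simp
    · simp [hab]
  clear h1
  induction rest with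
  | nil => simp [evC_nil]
  | cons q rest ih =>
    rw [evC_cons, evC_cons, Pi.add_apply, Pi.add_apply, mul_add, add_mul,
      ih fun q hq => h2 q (List.mem_cons_of_mem _ hq)]
    congr 1
    obtain ⟨-, a', h6, h7⟩ := h2 q List.mem_cons_self
    rw [← h6, bas_code]
    by_cases hab : a = a'
    · subst hab
      rw [h7, chi_add, chi_smul]
      simp only [Pi.smul_apply, Pi.single_eq_same, smul_eq_mul, zpow_natCast, Units.val_mul,
        Units.val_pow_eq_pow_val, mul_pow]
      ring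
    · simp [hab]

/-- root elements indexed by natural numbers -/
def xN (D : ChevalleyDatum) (F : Type*) [Field F] (r : ℕ) (t : F) : Matrix D.Idx D.Idx F :=
  if h : r < D.nroots then D.xMat F ⟨r, h⟩ t else 1

theorem xN_coe (r : Fin D.nroots) (t : F) : xN D F r t = D.xMat F r t := by simp [xN]

theorem OK.colN (h : T.OK D) {r : ℕ} (hr : r < D.nroots) (t : F) (b : ℕ) :
    xN D F r t *ᵥ bas D.rank D.nroots F b = evC D.rank D.nroots t (T.col D r b) := by
  rw [xN, dif_pos hr]; exact h.col ⟨r, hr⟩ t b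

theorem OK.add_of_chk (h : T.OK D) (r : Fin D.nroots) (hr : T.chkAdd D r = true) (t u : F) :
    D.xMat F r (t + u) = D.xMat F r t * D.xMat F r u := by
  have := eqW_spec (T.col D) (xN D F) t u (fun p hp => by
    have : p.1 = r := by
      simp only [List.cons_append, List.nil_append, List.mem_cons, List.not_mem_nil, or_false] at hp
      rcases hp with rfl | rfl | rfl <;> rfl
    exact h.colN (this ▸ r.2)) hr
  simpa [evP, xN_coe] using this

/-- the matrix of the representative of a simple reflection -/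
def OK.nM (h : T.OK D) (F : Type*) [Field F] (i : Fin D.rank) : Matrix D.Idx D.Idx F :=
  D.xMat F ((rd h.hR).sim i) 1 * D.xMat F ((rd h.hR).neg ((rd h.hR).sim i)) (-1) *
    D.xMat F ((rd h.hR).sim i) 1

theorem OK.chkN_spec (h : T.OK D) (i : Fin D.rank) :
    (∀ t u : F, D.xMat F ((rd h.hR).sim i) (t + u) =
      D.xMat F ((rd h.hR).sim i) t * D.xMat F ((rd h.hR).sim i) u) ∧
    (∀ t u : F, D.xMat F ((rd h.hR).neg ((rd h.hR).sim i)) (t + u) =
      D.xMat F ((rd h.hR).neg ((rd h.hR).sim i)) t * D.xMat F ((rd h.hR).neg ((rd h.hR).sim i)) u) ∧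
    (∀ s : Fin D.nroots, h.nM F i *ᵥ Pi.single (Sum.inr s) 1 =
        (T.feta D i s : F) • Pi.single (Sum.inr ((rd h.hR).rs i s)) 1 ∧
      T.feta D i s = T.feta D i (T.fneg s) ∧
      ∀ j : Fin D.rank, T.fca D j s =
        T.fca D j (T.frs D i s) - T.fA D (T.fsim j) i * T.fca D i (T.frs D i s) ∧
        T.fcor D (T.frs D i s) j = T.fcor D s j - if j = i then
          ∑ k : Fin D.rank, T.fcor D s k * T.fA D (T.fsim k) i else 0) ∧
    (∀ j : Fin D.rank, h.nM F i *ᵥ Pi.single (Sum.inl j) 1 =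
      Pi.single (Sum.inl j) 1 - (T.fA D (T.fsim j) i : F) • Pi.single (Sum.inl i) 1) ∧
    T.feta D i (T.fsim i) = -1 := by
  have h1 := h.hN i i.2
  simp only [chkN, Bool.and_eq_true, ieq_iff] at h1
  obtain ⟨⟨⟨⟨a1, a2⟩, a3⟩, a4⟩, a5⟩ := h1
  have key : ∀ v : List Term, h.nM F i *ᵥ evV D.rank D.nroots (0 : F) 0 v =
      evV D.rank D.nroots (0 : F) 0 (wapp (T.col D) (T.wN i) v) := by
    intro v
    rw [← wapp_spec (T.col D) (xN D F) 0 0 (T.wN i)]
    · congr 1
      simp only [wN, List.map_cons, List.map_nil, List.prod_cons, List.prod_nil, mul_one, nM,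
        mul_assoc, ← xN_coe]
      simp [evP, rd]
    · intro p hp
      refine h.colN ?_
      simp only [wN, List.mem_cons, List.not_mem_nil, or_false] at hp
      rcases hp with rfl | rfl | rfl
      · exact ((rd h.hR).sim i).2
      · exact ((rd h.hR).neg ((rd h.hR).sim i)).2
      · exact ((rd h.hR).sim i).2
  refine ⟨h.add_of_chk _ a1, h.add_of_chk _ a2, fun s => ?_, fun j => ?_, a5⟩
  · have b := allB_spec a3 s s.2
    simp only [Bool.and_eq_true, ieq_iff] at b
    refine ⟨?_, b.1.2, fun j => ?_⟩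
    · rw [← bas_inr, ← evV_bas 0 0, key, eqV_spec 0 0 b.1.1, ← bas_inr]
      simp [evV, rd]
    · have := allB_spec b.2 j j.2
      simpa only [Bool.and_eq_true, ieq_iff, cond_beq, Fin.val_inj, sumB_eq] using this
  · rw [← bas_inl, ← evV_bas 0 0, key, eqV_spec 0 0 (allB_spec a4 j j.2), ← bas_inl]
    simp [evV, sub_eq_add_neg]

theorem OK.chkC_spec (h : T.OK D) (i : Fin D.rank) (s u : Fin D.nroots) :
    T.fL D (T.frs D i s) (T.frs D i u) =
      T.trans D i (T.feta D i s) (T.feta D i u * T.feta D i s) (T.fL D s u) := by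
  have key : ∀ s : Fin D.nroots, ∀ e ∈ row D s, T.fL D (T.frs D i s) (T.frs D i e.1) =
      T.trans D i (T.feta D i s) (T.feta D i e.1 * T.feta D i s) e.2.toList := by
    intro s e he
    have h1 := allB_spec (h.hC i i.2) s s.2
    rw [force_eq, forceI_eq] at h1
    exact of_decide_eq_true (allL_spec h1 e he)
  by_cases h0 : T.fL D s u = []
  · rw [h0, trans]
    by_contra hne
    obtain ⟨h1, h2⟩ := chkM_spec (allB_spec h.hM _ ((rd h.hR).rs i s).2)
    obtain ⟨e, he, h3⟩ := (h2 _ ((rd h.hR).rs i u).2).2.resolve_left hne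
    have h4 := key ((rd h.hR).rs i s) e he
    have e1 : T.frs D i ((rd h.hR).rs i s) = s := congrArg Fin.val ((rd h.hR).rs_rs i s)
    have e2 : T.frs D i ((rd h.hR).rs i u) = u := congrArg Fin.val ((rd h.hR).rs_rs i u)
    rw [e1, h3, e2, h0, ← (h1 e he).2, h3] at h4
    obtain ⟨p, L, hL⟩ := List.exists_cons_of_ne_nil hne
    have hL' : T.fL D ((rd h.hR).rs i s) ((rd h.hR).rs i u) = p :: L := hL
    rw [hL', trans] at h4
    exact absurd h4 (by simp)
  · obtain ⟨h1, h2⟩ := chkM_spec (allB_spec h.hM _ s.2)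
    obtain ⟨e, he, h3⟩ := (h2 _ u.2).2.resolve_left h0
    rw [← h3, (h1 e he).2]
    exact key s e he

theorem OK.nM_zk (h : T.OK D) (i : Fin D.rank) (es eu : ℤ) (hs : es * es = 1) (hu : eu * eu = 1)
    (t : F) (L : List (ℕ × ℤ)) : ∀ k, (∀ q ∈ zk D.rank L k, q.1 < D.rank + D.nroots) →
    h.nM F i *ᵥ evC D.rank D.nroots t (zk D.rank L k) =
      (eu : F) • evC D.rank D.nroots ((es : F) * t) (zk D.rank (T.trans D i es (eu * es ^ k) L) k) := by
  induction L with
  | nil => intro k _; simp [zk, trans, evC_nil]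
  | cons p L ih =>
    intro k hk
    have h1 : p.1 < D.nroots := by
      have := hk _ List.mem_cons_self
      simp only at this; omega
    rw [trans, zk, zk, evC_cons, evC_cons, mulVec_add, ih _ fun q hq => hk q (List.mem_cons_of_mem _ hq),
      smul_add, mul_assoc eu, ← _root_.pow_succ, mulVec_smul]
    congr 1
    have h2 := ((h.chkN_spec (F := F) i).2.2.1 ⟨p.1, h1⟩).1
    rw [← bas_inr, ← bas_inr] at h2
    simp only
    rw [h2, smul_smul, smul_smul]
    congr 1
    have hs' : ((es : F) ^ k) * (es : F) ^ k = 1 := by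
      rw [← mul_pow, ← Int.cast_mul, hs, Int.cast_one, one_pow]
    have hu' : (eu : F) * eu = 1 := by rw [← Int.cast_mul, hu, Int.cast_one]
    push_cast
    linear_combination (-(p.2 : F) * t ^ k * (T.feta D i p.1 : F) * ((es : F) ^ k * (es : F) ^ k)) * hu' -
      ((p.2 : F) * t ^ k * (T.feta D i p.1 : F)) * hs'

/-- the coroot as a vector -/
def hvF (T : Tab) (D : ChevalleyDatum) (F : Type*) [Field F] (r : ℕ) : Ix D.rank D.nroots → F :=
  Sum.elim (fun i => (T.fcor D r i : F)) fun _ => 0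

theorem OK.colneg (h : T.OK D) (r : Fin D.nroots) (t : F) :
    D.xMat F r t *ᵥ Pi.single (Sum.inr ((rd h.hR).neg r)) 1 =
      Pi.single (Sum.inr ((rd h.hR).neg r)) 1 + t • hvF T D F r - t ^ 2 • Pi.single (Sum.inr r) 1 := by
  rw [← bas_inr, h.col, col_neg r _ ((rd h.hR).neg_ne r) rfl, evC_cons, evC_cons, bas_inr, bas_inr]
  funext a
  simp only [Pi.add_apply, Pi.sub_apply, evC_range]
  rcases a with j | s
  · simp [hvF, mul_comm]
  · simp [hvF, sub_eq_add_neg]

theorem hvF_sum (r : ℕ) : hvF T D F r =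
    ∑ j : Fin D.rank, (T.fcor D r j : F) • (Pi.single (Sum.inl j) 1 : Ix D.rank D.nroots → F) := by
  funext a
  rcases a with j | s <;> simp [hvF, Finset.sum_apply, Pi.single_apply]

theorem OK.nconj (h : T.OK D) (i : Fin D.rank) (s : Fin D.nroots) (t : F) :
    h.nM F i * D.xMat F s t = D.xMat F ((rd h.hR).rs i s) ((T.feta D i s : F) * t) * h.nM F i := by
  obtain ⟨-, -, h1, h2, -⟩ := h.chkN_spec (F := F) i
  have hsq : (T.feta D i s : F) * T.feta D i s = 1 := by rw [← Int.cast_mul, feta_sq, Int.cast_one]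
  have hinl : ∀ (r : Fin D.nroots) (y : F) (j : Fin D.rank), D.xMat F r y *ᵥ Pi.single (Sum.inl j) 1 =
      Pi.single (Sum.inl j) 1 - ((T.fca D j r : F) * y) • Pi.single (Sum.inr r) 1 := by
    intro r y j
    rw [← bas_inl, h.col, col_inl, evC_cons, evC_cons, evC_nil, bas_inr]
    simp [sub_eq_add_neg]
  refine mat_ext fun b => ?_
  rw [← mulVec_mulVec, ← mulVec_mulVec]
  rcases b with j | u
  · rw [hinl, mulVec_sub, mulVec_smul, h2, (h1 s).1, mulVec_sub, mulVec_smul, hinl, hinl,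
      ((h1 s).2.2 j).1]
    have : ((rd h.hR).rs i s : ℕ) = T.frs D i s := rfl
    rw [this]
    push_cast
    module
  by_cases hu : u = s
  · subst hu
    have : ∀ (r : Fin D.nroots) (y : F), D.xMat F r y *ᵥ Pi.single (Sum.inr r) 1 =
        Pi.single (Sum.inr r) 1 := by
      intro r y
      rw [← bas_inr, h.col, col_self, evC_cons, evC_nil]; simp
    rw [this, (h1 u).1, mulVec_smul, this]
  by_cases hu' : u = (rd h.hR).neg s
  · subst hu'
    have e1 : (rd h.hR).rs i ((rd h.hR).neg s) = (rd h.hR).neg ((rd h.hR).rs i s) :=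
      RD.W_neg ((rd h.hR).sr_mem i) s
    have e2 : T.feta D i ((rd h.hR).neg s) = T.feta D i s := (h1 s).2.1.symm
    have e3 : h.nM F i *ᵥ hvF T D F s = hvF T D F ((rd h.hR).rs i s) := by
      rw [hvF_sum, mulVec_sum]
      simp only [mulVec_smul, h2, smul_sub, Finset.sum_sub_distrib, smul_smul, ← Finset.sum_smul]
      rw [← hvF_sum]
      funext a
      rcases a with j | v
      · have : ((rd h.hR).rs i s : ℕ) = T.frs D i s := rfl
        simp only [hvF, Pi.sub_apply, Sum.elim_inl, this, ((h1 s).2.2 j).2, Pi.smul_apply,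
          Pi.single_apply, Sum.inl.injEq]
        split_ifs <;> simp
      · simp [hvF]
    rw [h.colneg, mulVec_sub, mulVec_add, mulVec_smul, mulVec_smul, (h1 _).1, (h1 _).1, e1, e2,
      mulVec_smul, h.colneg, e3, smul_sub, smul_add, smul_smul, smul_smul, smul_smul,
      ← mul_assoc, hsq, one_mul, mul_pow, sq (T.feta D i s : F), hsq, one_mul, mul_comm]
  have hu2 : (u : ℕ) ≠ T.fneg s := fun e => hu' (Fin.ext e)
  have hw1 : (rd h.hR).rs i u ≠ (rd h.hR).rs i s := fun e => hu (((rd h.hR).sr i).injective e)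
  have hw2 : ((rd h.hR).rs i u : ℕ) ≠ T.fneg ((rd h.hR).rs i s) := fun e => by
    have e1 : (rd h.hR).sr i u = (rd h.hR).neg ((rd h.hR).sr i s) := Fin.ext e
    rw [← RD.W_neg ((rd h.hR).sr_mem i)] at e1
    exact hu' (((rd h.hR).sr i).injective e1)
  rw [(h1 u).1, mulVec_smul, ← bas_inr, ← bas_inr, h.col, h.col, col_gen s u hu hu2,
    col_gen _ _ hw1 hw2, evC_cons, evC_cons, mulVec_add, mulVec_smul, bas_inr, (h1 u).1,
    h.nM_zk i _ _ (feta_sq i s) (feta_sq i u) t _ 1, smul_add, pow_one, ← h.chkC_spec, bas_inr]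
  · simp [rd]
  · intro q hq
    obtain ⟨-, v, h3, -⟩ := h.fL_mem s u q hq
    rw [h3]; exact Nat.add_lt_add_left v.2 _

theorem OK.x_add (h : T.OK D) (r : Fin D.nroots) (t u : F) :
    D.xMat F r (t + u) = D.xMat F r t * D.xMat F r u := by
  obtain ⟨w, hw, j, rfl⟩ := (rd h.hR).exists_W_sim r
  revert t u
  refine (rd h.hR).W_ind (P := fun w => ∀ t u : F, D.xMat F (w ((rd h.hR).sim j)) (t + u) =
    D.xMat F (w ((rd h.hR).sim j)) t * D.xMat F (w ((rd h.hR).sim j)) u)
    (h.chkN_spec (F := F) j).1 ?_ hw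
  intro i w _ ih t u
  obtain ⟨a1, a2, -⟩ := h.chkN_spec (F := F) i
  set s := w ((rd h.hR).sim j)
  have hsq : (T.feta D i s : F) * T.feta D i s = 1 := by rw [← Int.cast_mul, feta_sq, Int.cast_one]
  have hN : h.nM F i * (D.xMat F ((rd h.hR).sim i) (-1) *
      D.xMat F ((rd h.hR).neg ((rd h.hR).sim i)) 1 * D.xMat F ((rd h.hR).sim i) (-1)) = 1 := by
    rw [nM, mul_assoc, ← mul_assoc (D.xMat F _ 1), ← mul_assoc (D.xMat F _ 1), ← a1, add_neg_cancel,
      h.x_zero, one_mul, mul_assoc, ← mul_assoc (D.xMat F _ (-1)), ← a2, neg_add_cancel, h.x_zero,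
      one_mul, ← a1, add_neg_cancel, h.x_zero]
  have key : ∀ y : F, D.xMat F ((rd h.hR).rs i s) y * h.nM F i =
      h.nM F i * D.xMat F s ((T.feta D i s : F) * y) := fun y => by
    rw [h.nconj, ← mul_assoc, hsq, one_mul]
  have e : (((rd h.hR).sr i * w) ((rd h.hR).sim j)) = (rd h.hR).rs i s := rfl
  rw [e, ← mul_one (D.xMat F _ (t + u)), ← hN, ← mul_assoc, key, mul_add, ih,
    ← mul_assoc (h.nM F i), ← key, mul_assoc (D.xMat F _ t), ← key, mul_assoc, mul_assoc, hN, mul_one]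

end Tab

end Cfsg.Agent.Chev
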