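import Cfsg.Agent.Lib.Chev.E8T

/-! Checks for type E8. -/

set_option autoImplicit false

namespace Cfsg.Agent.Chev

open Cfsg.Lie

theorem e8_C4 : tE8.chkC chevE8 4 = true := by decide +kernel
theorem e8_C5 : tE8.chkC chevE8 5 = true := by decide +kernel
theorem e8_C6 : tE8.chkC chevE8 6 = true := by decide +kernel
theorem e8_C7 : tE8.chkC chevE8 7 = true := by decide +kernel

end Cfsg.Agent.Chev
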