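import Cfsg.Agent.Lib.Chev.E8T

/-! Checks for type E8. -/

set_option autoImplicit false

namespace Cfsg.Agent.Chev

open Cfsg.Lie

theorem e8_rep : allL e8_reps (tE8.chkRep chevE8) = true := by decide +kernel
theorem e8_red : tE8.chkRed chevE8 e8_reps = true := by decide +kernel
theorem e8_mu_ok : tE8.chkMu chevE8 e8_mu = true := by decide +kernel
theorem e8_J : tE8.chkJ chevE8 = true := by decide +kernel
theorem e8_cov : tE8.chkCov chevE8 1 3 e8_rk e8_pa = true := by decide +kernel
theorem e8_ns : (cntB chevE8.nroots fun r => ilt 0 (tE8.fht chevE8 r) && tE8.evB chevE8 1 r) = 56 := by decide +kernel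
theorem e8_chs_ok : tE8.chkChain chevE8 1 [] e8_chs = true := by decide +kernel
theorem e8_nt : (cntB chevE8.nroots fun r => ilt 0 (tE8.fht chevE8 r) && tE8.evB chevE8 3 r) = 64 := by decide +kernel
theorem e8_cht_ok : tE8.chkChain chevE8 3 [] e8_cht = true := by decide +kernel

end Cfsg.Agent.Chev
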