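import Cfsg.Agent.Lib.Chev.E8A
import Cfsg.Agent.Lib.Chev.E8M
import Cfsg.Agent.Lib.Chev.E8N
import Cfsg.Agent.Lib.Chev.E8C
import Cfsg.Agent.Lib.Chev.E8D
import Cfsg.Agent.Lib.Chev.E8P

/-! The Chevalley group of type E8. -/

set_option autoImplicit false

namespace Cfsg.Agent.Chev

open Cfsg.Lie

theorem e8_ok : tE8.OK chevE8 where
  hR := e8_R
  hD := e8_D
  hM := e8_M
  hW := e8_W
  hN := fun i hi => by
    have hi' : i < 8 := hi
    interval_cases i
    exacts [e8_N0, e8_N1, e8_N2, e8_N3, e8_N4, e8_N5, e8_N6, e8_N7]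
  hC := fun i hi => by
    have hi' : i < 8 := hi
    interval_cases i
    exacts [e8_C0, e8_C1, e8_C2, e8_C3, e8_C4, e8_C5, e8_C6, e8_C7]

/-- The Chevalley group of type E8 as a `Sys`. -/
noncomputable def e8_sys (F : Type*) [Field F] : Sys (Tab.rd e8_ok.hR) F (chevE8.group F) :=
  e8_ok.sys e8_reps e8_mu e8_rep e8_red e8_mu_ok F

end Cfsg.Agent.Chev
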