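import Cfsg.Agent.Lib.Chev.Sys

/-! Boolean loops, table lookups and a symbolic evaluator for words in root elements. -/

set_option autoImplicit false

namespace Cfsg.Agent.Chev

open Finset Matrix

noncomputable def allB (n : ℕ) (f : ℕ → Bool) : Bool := Nat.rec true (fun k ih => and (f k) ih) n

theorem allB_spec {n : ℕ} {f : ℕ → Bool} (h : allB n f = true) : ∀ i < n, f i = true := by
  induction n with
  | zero => intro i hi; exact absurd hi (Nat.not_lt_zero _)
  | succ n ih =>
    have h' : (f n && allB n f) = true := h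
    rw [Bool.and_eq_true] at h'
    intro i hi
    rcases Nat.lt_succ_iff_lt_or_eq.1 hi with h1 | rfl
    · exact ih h'.2 i h1
    · exact h'.1

noncomputable def anyB (n : ℕ) (f : ℕ → Bool) : Bool := Nat.rec false (fun k ih => or (f k) ih) n

theorem anyB_spec {n : ℕ} {f : ℕ → Bool} (h : anyB n f = true) : ∃ i < n, f i = true := by
  induction n with
  | zero => exact absurd h (by simp [anyB])
  | succ n ih =>
    have h' : (f n || anyB n f) = true := h
    rw [Bool.or_eq_true] at h'
    rcases h' with h1 | h1
    · exact ⟨n, Nat.lt_succ_self _, h1⟩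
    · obtain ⟨i, hi, h2⟩ := ih h1
      exact ⟨i, Nat.lt_succ_of_lt hi, h2⟩

noncomputable def allL {α : Type} (L : List α) (f : α → Bool) : Bool :=
  List.rec true (fun a _ ih => and (f a) ih) L

theorem allL_spec {α : Type} {L : List α} {f : α → Bool} (h : allL L f = true) :
    ∀ a ∈ L, f a = true := by
  induction L with
  | nil => simp
  | cons a L ih =>
    have h' : (f a && allL L f) = true := h
    rw [Bool.and_eq_true] at h'
    intro b hb
    rcases List.mem_cons.1 hb with rfl | hb
    · exact h'.1
    · exact ih h'.2 b hb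

noncomputable def anyL {α : Type} (L : List α) (f : α → Bool) : Bool :=
  List.rec false (fun a _ ih => or (f a) ih) L

theorem anyL_spec {α : Type} {L : List α} {f : α → Bool} (h : anyL L f = true) :
    ∃ a ∈ L, f a = true := by
  induction L with
  | nil => exact absurd h (by simp [anyL])
  | cons a L ih =>
    have h' : (f a || anyL L f) = true := h
    rw [Bool.or_eq_true] at h'
    rcases h' with h1 | h1
    · exact ⟨a, List.mem_cons_self, h1⟩
    · obtain ⟨b, hb, h2⟩ := ih h1
      exact ⟨b, List.mem_cons_of_mem _ hb, h2⟩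

noncomputable def sumB (n : ℕ) (f : ℕ → ℤ) : ℤ := Nat.rec 0 (fun k ih => Int.add (f k) ih) n

theorem sumB_eq (n : ℕ) (f : ℕ → ℤ) : sumB n f = ∑ j : Fin n, f j := by
  induction n with
  | zero => rfl
  | succ n ih =>
    rw [Fin.sum_univ_castSucc]
    exact (congrArg (f n + ·) ih).trans (add_comm _ _)

noncomputable def cntB (n : ℕ) (f : ℕ → Bool) : ℕ :=
  Nat.rec 0 (fun k ih => cond (f k) (Nat.succ ih) ih) n

theorem cntB_eq (n : ℕ) (f : ℕ → Bool) :
    cntB n f = (univ.filter fun j : Fin n => f j = true).card := by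
  rw [Finset.card_filter]
  induction n with
  | zero => rfl
  | succ n ih =>
    rw [Fin.sum_univ_castSucc]
    have : cntB (n + 1) f = cond (f n) (Nat.succ (cntB n f)) (cntB n f) := rfl
    rw [this, ih]
    cases h : f n <;> simp [h]

/-- evaluate the argument before passing it on -/
noncomputable def force {β : Type} (a : ℕ) (f : ℕ → β) : β :=
  Nat.rec (f 0) (fun k _ => f (Nat.succ k)) a

@[simp] theorem force_eq {β : Type} (a : ℕ) (f : ℕ → β) : force a f = f a := by
  cases a <;> rfl

noncomputable def forceI {β : Type} (a : ℤ) (f : ℤ → β) : β :=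
  Int.rec (fun k => force k fun k => f (Int.ofNat k)) (fun k => force k fun k => f (Int.negSucc k)) a

@[simp] theorem forceI_eq {β : Type} (a : ℤ) (f : ℤ → β) : forceI a f = f a := by
  cases a <;> simp [forceI]

def look (T K i : ℕ) : ℕ := Nat.mod (Nat.shiftRight T (Nat.mul K i)) (Nat.pow 2 K)

def lookI (T i : ℕ) : ℤ := Int.subNatNat (Nat.mod (Nat.shiftRight T (Nat.mul 4 i)) 16) 8

def ieq (a b : ℤ) : Bool := decide (a = b)
def ilt (a b : ℤ) : Bool := decide (a < b)
def ile (a b : ℤ) : Bool := decide (a ≤ b)
@[simp] theorem ieq_iff (a b : ℤ) : ieq a b = true ↔ a = b := by simp [ieq]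
@[simp] theorem ilt_iff (a b : ℤ) : ilt a b = true ↔ a < b := by simp [ilt]
@[simp] theorem ile_iff (a b : ℤ) : ile a b = true ↔ a ≤ b := by simp [ile]

/-! ### symbolic vectors -/

abbrev Mono : Type := ℕ × ℕ × ℤ
abbrev Term : Type := ℕ × ℕ × ℕ × ℤ

def pmul (x y : List Mono) : List Mono :=
  x.flatMap fun a => y.map fun b => (a.1 + b.1, a.2.1 + b.2.1, a.2.2 * b.2.2)

def ppow (y : List Mono) : ℕ → List Mono
  | 0 => [(0, 0, 1)]
  | k + 1 => pmul y (ppow y k)

def app (col : ℕ → ℕ → List Mono) (r : ℕ) (y : List Mono) (vec : List Term) : List Term :=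
  vec.flatMap fun p => (col r p.1).flatMap fun q => (ppow y q.2.1).map fun m =>
    (q.1, p.2.1 + m.1, p.2.2.1 + m.2.1, p.2.2.2 * q.2.2 * m.2.2)

def ins (p : Term) : List Term → List Term
  | [] => [p]
  | q :: L => if p.1 = q.1 ∧ p.2.1 = q.2.1 ∧ p.2.2.1 = q.2.2.1
      then (q.1, q.2.1, q.2.2.1, p.2.2.2 + q.2.2.2) :: L else q :: ins p L

def nrm (L : List Term) : List Term := (L.foldr ins []).filter fun p => p.2.2.2 ≠ 0

def wapp (col : ℕ → ℕ → List Mono) : List (ℕ × List Mono) → List Term → List Term
  | [], v => v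
  | p :: w, v => nrm (app col p.1 p.2 (wapp col w v))

def eqV (v v' : List Term) : Bool :=
  (nrm (v ++ v'.map fun p => (p.1, p.2.1, p.2.2.1, -p.2.2.2))).isEmpty

section sound
variable {l n : ℕ} {F : Type*} [Field F]

def code (l n : ℕ) : Ix l n → ℕ := Sum.elim (fun i => i) fun r => l + r

def bas (l n : ℕ) (F : Type*) [Field F] (b : ℕ) : Ix l n → F := fun a => if code l n a = b then 1 else 0

theorem code_inj : Function.Injective (code l n) := by
  rintro (i | r) (j | s) h <;> simp only [code, Sum.elim_inl, Sum.elim_inr] at h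
  · rw [Fin.ext h]
  · omega
  · omega
  · rw [Fin.ext (Nat.add_left_cancel h)]

theorem code_lt (a : Ix l n) : code l n a < l + n := by
  rcases a with i | r <;> simp only [code, Sum.elim_inl, Sum.elim_inr] <;> omega

theorem bas_code (a : Ix l n) : bas l n F (code l n a) = Pi.single a 1 := by
  funext b
  simp only [bas, code_inj.eq_iff, Pi.single_apply]

theorem bas_inl (i : Fin l) : bas l n F i = Pi.single (Sum.inl i) 1 := bas_code (Sum.inl i)
theorem bas_inr (r : Fin n) : bas l n F (l + r) = Pi.single (Sum.inr r) 1 := bas_code (Sum.inr r)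

theorem bas_ge {b : ℕ} (h : l + n ≤ b) : bas l n F b = 0 := by
  funext a
  have := code_lt a
  simp only [bas, Pi.zero_apply]
  rw [if_neg (by omega)]

def evP (t u : F) (y : List Mono) : F := (y.map fun m => (m.2.2 : F) * t ^ m.1 * u ^ m.2.1).sum

def evV (l n : ℕ) (t u : F) (v : List Term) : Ix l n → F :=
  (v.map fun p => ((p.2.2.2 : F) * t ^ p.2.1 * u ^ p.2.2.1) • bas l n F p.1).sum

def evC (l n : ℕ) (t : F) (c : List Mono) : Ix l n → F :=
  (c.map fun q => ((q.2.2 : F) * t ^ q.2.1) • bas l n F q.1).sum

theorem evP_pmul (t u : F) (x y : List Mono) : evP t u (pmul x y) = evP t u x * evP t u y := by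
  induction x with
  | nil => simp [evP, pmul]
  | cons a x ih =>
    unfold pmul evP at *
    rw [List.flatMap_cons, List.map_append, List.sum_append, ih, List.map_cons, List.sum_cons,
      add_mul, List.map_map]
    congr 1
    rw [← List.sum_map_mul_left]
    congr 1
    refine List.map_congr_left fun b _ => ?_
    simp only [Function.comp, pow_add]
    push_cast; ring

theorem evP_ppow (t u : F) (y : List Mono) (k : ℕ) : evP t u (ppow y k) = evP t u y ^ k := by
  induction k with
  | zero => simp [evP, ppow]
  | succ k ih => rw [ppow, evP_pmul, ih, _root_.pow_succ']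

theorem evV_nil (t u : F) : evV l n t u [] = 0 := rfl

theorem evV_cons (t u : F) (p : Term) (v : List Term) : evV l n t u (p :: v) =
    ((p.2.2.2 : F) * t ^ p.2.1 * u ^ p.2.2.1) • bas l n F p.1 + evV l n t u v := by
  simp [evV]

theorem evV_append (t u : F) (v w : List Term) :
    evV l n t u (v ++ w) = evV l n t u v + evV l n t u w := by simp [evV]

theorem evV_ins (t u : F) (p : Term) (L : List Term) :
    evV l n t u (ins p L) = evV l n t u (p :: L) := by
  induction L with
  | nil => rfl
  | cons q L ih =>
    rw [ins]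
    split_ifs with h
    · simp only [evV_cons, h.1, h.2.1, h.2.2]
      rw [← add_assoc, ← add_smul]
      push_cast; congr 2; ring
    · rw [evV_cons, ih, evV_cons, evV_cons, evV_cons, add_left_comm]

theorem evV_nrm (t u : F) (L : List Term) : evV l n t u (nrm L) = evV l n t u L := by
  have h1 : ∀ L : List Term, evV l n t u (L.filter fun p => p.2.2.2 ≠ 0) = evV l n t u L := by
    intro L
    induction L with
    | nil => rfl
    | cons q L ih =>
      rw [List.filter_cons]
      split_ifs with h
      · rw [evV_cons, evV_cons, ih]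
      · have : q.2.2.2 = 0 := by simpa using h
        rw [evV_cons, ih, this]; simp
  rw [nrm, h1]
  induction L with
  | nil => rfl
  | cons q L ih => rw [List.foldr_cons, evV_ins, evV_cons, evV_cons, ih]

theorem eqV_spec (t u : F) {v v' : List Term} (h : eqV v v' = true) :
    evV l n t u v = evV l n t u v' := by
  have h1 := evV_nrm (l := l) (n := n) t u (v ++ v'.map fun p => (p.1, p.2.1, p.2.2.1, -p.2.2.2))
  rw [List.isEmpty_iff.1 h, evV_append, evV_nil] at h1
  have h2 : ∀ v' : List Term, evV l n t u (v'.map fun p => (p.1, p.2.1, p.2.2.1, -p.2.2.2)) =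
      - evV l n t u v' := by
    intro v'
    induction v' with
    | nil => simp [evV]
    | cons q L ih => rw [List.map_cons, evV_cons, evV_cons, ih]; simp [add_comm]
  rw [h2] at h1
  exact (eq_of_sub_eq_zero (by rw [sub_eq_add_neg]; exact h1.symm))

theorem app_spec (col : ℕ → ℕ → List Mono) (r : ℕ) (X : F → Matrix (Ix l n) (Ix l n) F)
    (hX : ∀ t b, X t *ᵥ bas l n F b = evC l n t (col r b)) (t u : F) (y : List Mono)
    (v : List Term) : X (evP t u y) *ᵥ evV l n t u v = evV l n t u (app col r y v) := by
  induction v with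
  | nil => simp [app, evV]
  | cons p v ih =>
    rw [evV_cons, mulVec_add, ih, mulVec_smul, hX, app, app, List.flatMap_cons, evV_append]
    congr 1
    induction col r p.1 with
    | nil => simp [evC, evV]
    | cons q c ih2 =>
      rw [List.flatMap_cons, evV_append, ← ih2, evC, List.map_cons, List.sum_cons, smul_add]
      congr 1
      rw [← evP_ppow, smul_smul]
      induction ppow y q.2.1 with
      | nil => simp [evP, evV]
      | cons m z ih3 =>
        rw [List.map_cons, evV_cons, ← ih3, evP, List.map_cons, List.sum_cons, ← add_smul]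
        congr 1
        simp only [evP, pow_add]
        push_cast; ring

theorem wapp_spec (col : ℕ → ℕ → List Mono) (X : ℕ → F → Matrix (Ix l n) (Ix l n) F) (t u : F)
    (w : List (ℕ × List Mono)) (hX : ∀ p ∈ w, ∀ t b, X p.1 t *ᵥ bas l n F b = evC l n t (col p.1 b))
    (v : List Term) :
    (w.map fun p => X p.1 (evP t u p.2)).prod *ᵥ evV l n t u v = evV l n t u (wapp col w v) := by
  induction w with
  | nil => simp [wapp]
  | cons p w ih =>
    rw [List.map_cons, List.prod_cons, ← mulVec_mulVec, ih fun q hq => hX q (List.mem_cons_of_mem _ hq),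
      app_spec col p.1 (X p.1) (hX p List.mem_cons_self), wapp, evV_nrm]

theorem evV_bas (t u : F) (b : ℕ) : evV l n t u [(b, 0, 0, 1)] = bas l n F b := by simp [evV]

theorem mat_ext {M M' : Matrix (Ix l n) (Ix l n) F}
    (h : ∀ a, M *ᵥ Pi.single a 1 = M' *ᵥ Pi.single a 1) : M = M' := by
  ext a b
  have := congrFun (h b) a
  rwa [mulVec_single_one, mulVec_single_one] at this

/-- two words agree on every basis vector -/
noncomputable def eqW (col : ℕ → ℕ → List Mono) (m : ℕ) (w w' : List (ℕ × List Mono)) : Bool :=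
  allB m fun b => eqV (wapp col w [(b, 0, 0, 1)]) (wapp col w' [(b, 0, 0, 1)])

theorem eqW_spec (col : ℕ → ℕ → List Mono) (X : ℕ → F → Matrix (Ix l n) (Ix l n) F) (t u : F)
    {w w' : List (ℕ × List Mono)}
    (hX : ∀ p ∈ w ++ w', ∀ t b, X p.1 t *ᵥ bas l n F b = evC l n t (col p.1 b))
    (h : eqW col (l + n) w w' = true) :
    (w.map fun p => X p.1 (evP t u p.2)).prod = (w'.map fun p => X p.1 (evP t u p.2)).prod := by
  refine mat_ext fun a => ?_
  rw [← bas_code, ← evV_bas t u, wapp_spec col X t u w fun p hp => hX p (List.mem_append_left _ hp),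
    wapp_spec col X t u w' fun p hp => hX p (List.mem_append_right _ hp)]
  exact eqV_spec t u (allB_spec h _ (code_lt a))

end sound

end Cfsg.Agent.Chev
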