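import Cfsg.Agent.Lib.Chev.Build

/-! Two classes of involutions with prescribed centraliser orders. -/

set_option autoImplicit false

namespace Cfsg.Agent.Chev

theorem card_cent_of_isConj {G : Type*} [Group G] {s t : G} (h : IsConj s t) :
    Nat.card (Subgroup.centralizer ({s} : Set G)) = Nat.card (Subgroup.centralizer ({t} : Set G)) := by
  obtain ⟨g, rfl⟩ := isConj_iff.1 h
  refine Nat.card_congr ((MulAut.conj g).toEquiv.subtypeEquiv fun a => ?_)
  simp only [Subgroup.mem_centralizer_singleton_iff, MulEquiv.toEquiv_eq_coe, EquivLike.coe_coe,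
    MulAut.conj_apply]
  constructor
  · intro h1
    calc g * a * g⁻¹ * (g * s * g⁻¹) = g * (a * s) * g⁻¹ := by group
      _ = g * s * g⁻¹ * (g * a * g⁻¹) := by rw [h1]; group
  · intro h1
    calc a * s = g⁻¹ * (g * a * g⁻¹ * (g * s * g⁻¹)) * g := by group
      _ = s * a := by rw [h1]; group

theorem coprime_pow_sub_one (q k : ℕ) (hq : 0 < q) (hk : 0 < k) : Nat.Coprime q (q ^ k - 1) := by
  have h1 : 1 ≤ q ^ k := Nat.one_le_pow _ _ hq
  have h2 : Nat.Coprime (q ^ k) (q ^ k - 1) := by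
    have := (Nat.coprime_self_sub_right h1).2 (Nat.coprime_one_right (q ^ k))
    exact this
  exact (Nat.coprime_pow_left_iff hk _ _).1 h2

theorem ne_of_pow {q a b i j : ℕ} (hq : 1 < q) (hij : i < j) (hb : Nat.Coprime q b) :
    q ^ j * a ≠ q ^ i * b := by
  intro h
  obtain ⟨k, rfl⟩ := Nat.exists_eq_add_of_lt hij
  rw [add_assoc, pow_add, mul_assoc] at h
  have h1 := Nat.eq_of_mul_eq_mul_left (by positivity) h
  have h2 : q ∣ b := ⟨q ^ k * a, by rw [← h1]; ring⟩
  have := hb.eq_one_of_dvd h2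
  omega

end Cfsg.Agent.Chev
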