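import Cfsg.Agent.Lib.Chev.Bruhat

/-! Every involution is conjugate into the torus. -/

set_option autoImplicit false

namespace Cfsg.Agent.Chev

open Finset Matrix

namespace Sys

variable {l n : ℕ} {R : RD l n} {F : Type*} [Field F] {G : Type*} [Group G] {S : Sys R F G}

theorem Mon.coef_unique {g : G} {w w' : Equiv.Perm (Fin n)} {c c' : Fin n → Fˣ} (h : S.Mon g w c)
    (h' : S.Mon g w' c') (s : Fin n) : c s = c' s := by
  have h1 := h.entry_r (Sum.inr (w s)) s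
  rw [h'.entry_r, if_pos rfl] at h1
  split_ifs at h1
  · exact (Units.ext h1).symm
  · exact absurd h1.symm (c s).ne_zero

theorem Mon.sq_W {m : G} {w : Equiv.Perm (Fin n)} {c : Fin n → Fˣ} (h : S.Mon m w c)
    (h2 : m * m = 1) : w * w = 1 :=
  (h.mul h).W_unique Mon.one (one_mem _) (one_mem _) (by rw [h2])

variable (S)

theorem inv_conj_mon [Fintype F] (hF : Odd (Fintype.card F)) {u : G} (hu : u * u = 1) :
    ∃ (m : G) (w : Equiv.Perm (Fin n)) (c : Fin n → Fˣ), S.Mon m w c ∧ IsConj m u := by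
  obtain ⟨b1, h1, m, w, c, hm, b2, h2, rfl⟩ := S.inBNB u
  obtain ⟨v, hv, d, hb⟩ := mul_mem h2 h1
  have h3 : m * (b2 * b1) * (m * (b2 * b1)) = 1 := by
    have : m * (b2 * b1) * (m * (b2 * b1)) = b1⁻¹ * (b1 * m * b2 * (b1 * m * b2)) * b1 := by group
    rw [this, hu]; group
  have h4 : w = w⁻¹ := hm.W_unique hm.inv (mul_mem h2 h1) (inv_mem (mul_mem h2 h1)) (by
    rw [eq_inv_mul_iff_mul_eq, eq_inv_iff_mul_eq_one, ← h3]; group)
  have hww : w * w = 1 := by nth_rw 2 [h4]; exact mul_inv_cancel w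
  obtain ⟨a, ha, z, hz, rfl⟩ := S.U_split hm.mem hv
  have hmm := hm.mul hm
  rw [hww] at hmm
  have hz1 : z = 1 := by
    have h5 : m * z * m⁻¹ ∈ S.X R.negF := hm.conj_X (fun r hr => by simp at hr ⊢; exact hr.2) hz
    have h6 : m * a * m⁻¹ ∈ S.X R.posF := hm.conj_X (fun r hr => by simp at hr ⊢; exact hr.2) ha
    have h7 : m * S.h d * m⁻¹ ∈ S.Bor := by
      have := (hm.mul (S.mon_h d)).mul hm.inv
      rw [mul_one, mul_inv_cancel] at this
      rw [this.eq_h]; exact S.h_mem_Bor _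
    have h8 : m * m ∈ S.Bor := by rw [hmm.eq_h]; exact S.h_mem_Bor _
    have h9 : m * z * m⁻¹ = (m * a * m⁻¹)⁻¹ * ((b2 * b1)⁻¹ * (m * m)⁻¹) * (m * S.h d * m⁻¹)⁻¹ := by
      have : (b2 * b1)⁻¹ = m * (b2 * b1) * m := by
        rw [eq_comm, eq_inv_iff_mul_eq_one, ← h3]; group
      rw [this, hb]; group
    obtain ⟨y, hy, e, he⟩ := mul_mem (mul_mem (inv_mem (S.U_le_Bor h6))
      (mul_mem (inv_mem (mul_mem h2 h1)) (inv_mem h8))) (inv_mem h7)
    have := S.B_inf_V hy h5 (he.symm.trans h9.symm)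
    simpa using this
  subst hz1
  rw [mul_one] at hb
  have hm1 := hm.mul (S.mon_h d)
  rw [mul_one] at hm1
  set m1 := m * S.h d with hm1d
  set a1 := (S.h d)⁻¹ * a * S.h d with ha1d
  have ha1 : a1 ∈ S.X (R.ninvF w) := S.h_conj_X' d ha
  have e1 : m * (b2 * b1) = m1 * a1 := by rw [hb, hm1d, ha1d]; group
  rw [e1] at h3
  have h5 : m1⁻¹ * a1 * m1⁻¹⁻¹ ∈ S.X (R.ninvF w) := by
    refine hm1.inv.conj_X (fun r hr => ?_) ha1
    rw [R.mem_ninvF] at hr ⊢
    rw [← h4, ← Equiv.Perm.mul_apply, hww]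
    exact ⟨hr.2, hr.1⟩
  have s1 : R.ninvF w ⊆ R.posF := fun r hr => by simp at hr ⊢; exact hr.1
  have h6 : m1 * m1 = 1 := by
    have h7 := hm1.mul hm1
    rw [hww] at h7
    have h8 : m1 * m1 = (m1⁻¹ * a1 * m1⁻¹⁻¹ * a1)⁻¹ := by
      rw [eq_inv_iff_mul_eq_one, ← h3]; group
    have h9 := S.U_inf_H (inv_mem (S.X_mono s1 (mul_mem h5 ha1))) (h8.symm.trans h7.eq_h)
    rw [h7.eq_h, h9, h_one]
  have h7 : a1 * m1 = m1 * a1⁻¹ := by
    rw [eq_mul_inv_iff_mul_eq]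
    calc a1 * m1 * a1 = m1⁻¹ * (m1 * a1 * (m1 * a1)) := by group
      _ = m1 := by rw [h3, mul_one, inv_eq_of_mul_eq_one_right h6]
  have hodd : Odd (orderOf a1) := by
    have h8 := S.card_X (R.closed_ninvF hm.mem) (fun r hr => ((R.mem_ninvF w r).1 hr).1)
    have h9 : orderOf a1 ∣ Nat.card (S.X (R.ninvF w)) := Subgroup.orderOf_dvd_natCard _ ha1
    rw [h8] at h9
    exact Odd.of_dvd_nat hF.pow h9
  obtain ⟨k, hk⟩ := hodd
  have h8 : a1 ^ (k + 1) * a1 ^ (k + 1) = a1 := by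
    rw [← pow_add, show k + 1 + (k + 1) = 2 * k + 1 + 1 by ring, pow_succ, ← hk, pow_orderOf_eq_one,
      one_mul]
  have h9 : (a1 ^ (k + 1))⁻¹ * m1 = m1 * a1 ^ (k + 1) := by
    have : SemiconjBy m1 a1 a1⁻¹ := by
      rw [SemiconjBy, eq_inv_mul_iff_mul_eq, ← mul_assoc, h7]; group
    rw [← inv_pow]
    exact (this.pow_right _).symm
  refine ⟨m1, w, _, hm1, isConj_iff.2 ⟨b1 * (a1 ^ (k + 1))⁻¹, ?_⟩⟩
  have : b1 * m * b2 = b1 * (m1 * a1) * b1⁻¹ := by rw [← e1]; group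
  rw [this, mul_assoc b1, h9]
  conv_rhs => rw [← h8]
  group

theorem ns_neg (i : Fin l) (t : Fˣ) : S.ns i (-t) = (S.ns i t)⁻¹ := by
  simp only [ns, _root_.mul_inv_rev, x_inv, Units.val_neg, inv_neg, neg_neg, mul_assoc]

theorem ns_h (i : Fin l) (t u : Fˣ) : S.ns i t * S.h (R.coch (R.sim i) u) = S.ns i (t * u⁻¹) := by
  rw [S.ns_eq i t, S.ns_eq i (t * u⁻¹), mul_assoc, ← h_mul, ← R.coch_mul, mul_inv, inv_inv]

theorem h_coch_x (i : Fin l) (u : Fˣ) (t : F) : S.h (R.coch (R.sim i) u) * S.x (R.sim i) t =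
    S.x (R.sim i) ((u : F) * u * t) * S.h (R.coch (R.sim i) u) := by
  rw [h_x, R.chi_coch, R.pair_self]
  simp [zpow_ofNat, sq]

theorem ns_x (i : Fin l) (f : Fˣ) (t : F) : S.ns i f * S.x (R.sim i) t =
    S.x (R.neg (R.sim i)) (-((f : F) * f)⁻¹ * t) * S.ns i f := by
  obtain ⟨c, hc, h⟩ := S.mon_ns' i f
  rw [hc.conj, R.sr_sim, h]
  simp

theorem rel (i : Fin l) (y k : Fˣ) (b : F) (hk : (k : F) = 1 + b * y) :
    S.x (R.sim i) b * S.x (R.neg (R.sim i)) y = S.x (R.neg (R.sim i)) (y * (k : F)⁻¹) *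
      S.h (R.coch (R.sim i) k) * S.x (R.sim i) (b * (k : F)⁻¹) := by
  have h1 := x_neg_eq (S := S) i (-y⁻¹)
  have h2 := x_neg_eq (S := S) i (-(y⁻¹ * k))
  have hy := y.ne_zero
  have hk0 := k.ne_zero
  have e1 : -((-y⁻¹ : Fˣ) : F)⁻¹ = y := by simp
  have e2 : -((-(y⁻¹ * k) : Fˣ) : F)⁻¹ = y * (k : F)⁻¹ := by simp [mul_comm]
  rw [e1] at h1
  rw [e2] at h2
  have h3 := S.h_coch_x i k ((k : F)⁻¹ * (y : F)⁻¹)
  have e3 : (k : F) * k * ((k : F)⁻¹ * (y : F)⁻¹) = -((-(y⁻¹ * k) : Fˣ) : F) := by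
    simp; field_simp
  rw [e3] at h3
  rw [h1, h2, mul_assoc _ (S.x _ _) (S.h _), ← h3, ← mul_assoc _ (S.h _), mul_assoc _ _ (S.h _),
    ns_h, mul_assoc _ (S.x _ _) (S.x _ _), ← S.x_add, ← mul_assoc, ← mul_assoc, ← S.x_add]
  congr 2
  · congr 1
    simp only [Units.val_neg, Units.val_mul, Units.val_inv_eq_inv_val, neg_neg]
    rw [hk]; field_simp; ring
  · simp
  · simp only [Units.val_neg, Units.val_inv_eq_inv_val, neg_neg]
    field_simp
    rw [hk]; ring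

variable {S}

theorem Mon.conj_neg {m : G} {w : Equiv.Perm (Fin n)} {c : Fin n → Fˣ} (hm : S.Mon m w c)
    {r : Fin n} (hw : w r = R.neg r) (t : F) :
    m * S.x (R.neg r) t = S.x r ((c r : F)⁻¹ * t) * m := by
  rw [hm.conj, RD.W_neg hm.mem, hw, R.neg_neg, ← inv_eq_of_mul_eq_one_right (hm.neg r),
    Units.val_inv_eq_inv_val]

theorem Mon.sq_step (h2 : (2 : F) ≠ 0) {m : G} {w : Equiv.Perm (Fin n)} {c : Fin n → Fˣ}
    (hm : S.Mon m w c) {i : Fin l} (hw : w (R.sim i) = R.neg (R.sim i))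
    (hsq : IsSquare (c (R.sim i) : F)) : ∃ f, IsConj m (S.ns i f * m) := by
  obtain ⟨e, he⟩ := hsq
  have he0 : e ≠ 0 := by
    rintro rfl
    exact (c (R.sim i)).ne_zero (by simpa using he)
  let f : Fˣ := (Units.mk0 e he0)⁻¹
  have hf : (f : F) = e⁻¹ := by simp [f]
  refine ⟨f, isConj_iff.2 ⟨S.x (R.neg (R.sim i)) (-(e / 2)) * S.x (R.sim i) f, ?_⟩⟩
  have h3 := hm.conj (R.sim i) (-f)
  have h4 := hm.conj_neg hw (e / 2)
  have h5 := S.ns_x i f (e⁻¹ / 2)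
  have e1 : (c (R.sim i) : F) * -f = -(f : F)⁻¹ := by rw [he, hf]; field_simp
  have e2 : (c (R.sim i) : F)⁻¹ * (e / 2) = f + -(e⁻¹ / 2) := by rw [he, hf]; field_simp; ring
  have e3 : -((f : F) * f)⁻¹ * (e⁻¹ / 2) = -(e / 2) := by rw [hf]; field_simp
  rw [hw, e1] at h3
  rw [e2, S.x_add] at h4
  rw [e3] at h5
  rw [_root_.mul_inv_rev, x_inv, x_inv, neg_neg, ← mul_assoc, mul_assoc _ m, h3, ← mul_assoc,
    mul_assoc _ m, h4]
  have h6 : S.ns i f = S.x (R.neg (R.sim i)) (-(e / 2)) * S.ns i f * S.x (R.sim i) (-(e⁻¹ / 2)) := by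
    rw [← h5, ← x_inv, mul_inv_cancel_right]
  rw [h6]
  simp only [ns, mul_assoc]

theorem Mon.tw_step [Fintype F] (hF : Odd (Fintype.card F)) {m : G} {w : Equiv.Perm (Fin n)}
    {c : Fin n → Fˣ} (hm : S.Mon m w c) {i : Fin l} (hw : w (R.sim i) = R.neg (R.sim i))
    (hsq : ¬ IsSquare (c (R.sim i) : F)) :
    ∃ k : Fˣ, ¬ IsSquare (k : F) ∧ IsConj m (S.h (R.coch (R.sim i) k) * m) := by
  set e : F := ((c (R.sim i) : Fˣ) : F) with he
  have he0 : e ≠ 0 := (c (R.sim i)).ne_zero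
  obtain ⟨b, a, hab⟩ := FiniteField.exists_root_sum_quadratic
    (f := Polynomial.C e * Polynomial.X ^ 2 - 1) (g := Polynomial.C e * Polynomial.X ^ 2)
    (by compute_degree!) (by compute_degree!) (Nat.odd_iff.1 hF)
  simp only [Polynomial.eval_sub, Polynomial.eval_mul, Polynomial.eval_C, Polynomial.eval_pow,
    Polynomial.eval_X, Polynomial.eval_one] at hab
  have ha : a ≠ 0 := by
    rintro rfl
    have hb : b ≠ 0 := by rintro rfl; simp at hab
    exact hsq ⟨b⁻¹, by field_simp; linear_combination hab⟩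
  have hb : b ≠ 0 := by
    rintro rfl
    exact hsq ⟨a⁻¹, by field_simp; linear_combination hab⟩
  let k : Fˣ := Units.mk0 (e * a ^ 2) (mul_ne_zero he0 (pow_ne_zero _ ha))
  let y : Fˣ := Units.mk0 (-(e * b)) (neg_ne_zero.2 (mul_ne_zero he0 hb))
  have hk : (k : F) = e * a ^ 2 := rfl
  have hy : (y : F) = -(e * b) := rfl
  refine ⟨k, ?_, isConj_iff.2 ⟨S.x (R.neg (R.sim i)) (-(y * (k : F)⁻¹)) * S.x (R.sim i) b, ?_⟩⟩
  · rintro ⟨r, hr⟩
    exact hsq ⟨r * a⁻¹, by rw [hk] at hr; field_simp; linear_combination hr⟩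
  have h3 := hm.conj (R.sim i) (-b)
  have h4 := hm.conj_neg hw (y * (k : F)⁻¹)
  have h5 := S.rel i y k b (by rw [hk, hy]; linear_combination hab)
  have e1 : e * -b = y := by rw [hy]; ring
  have e2 : e⁻¹ * (y * (k : F)⁻¹) = -(b * (k : F)⁻¹) := by rw [hy]; field_simp
  rw [hw, ← he, e1] at h3
  rw [← he, e2] at h4
  rw [_root_.mul_inv_rev, x_inv, x_inv, neg_neg, ← mul_assoc, mul_assoc _ m, h3, ← mul_assoc,
    mul_assoc _ m, h4, mul_assoc _ (S.x (R.sim i) b), h5, ← x_inv, ← x_inv]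
  simp only [mul_assoc, inv_mul_cancel_left, mul_inv_cancel_left]

theorem Mon.sq_of_root {m : G} {w : Equiv.Perm (Fin n)} {c : Fin n → Fˣ} (hm : S.Mon m w c)
    (h2 : m * m = 1) {b : Fin l} (hw : w (R.sim b) = R.neg (R.sim b)) {g : Fin n}
    (hg : (w * R.sr b) g = g) (hodd : Odd (R.pair (R.sim b) (R.co g))) :
    IsSquare (c (R.sim b) : F) := by
  have hn := S.mon_ns b
  have h0 := hn.inv.mul hm
  rw [R.sr_inv, ← RD.comm_of_neg hm.mem hw] at h0
  set m0 := (S.ns b 1)⁻¹ * m with hm0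
  obtain ⟨c0, h0⟩ : ∃ c0, S.Mon m0 (w * R.sr b) c0 := ⟨_, h0⟩
  have e0 : m = S.ns b 1 * m0 := by rw [hm0, mul_inv_cancel_left]
  have hv : (w * R.sr b) (R.sim b) = R.sim b := by
    rw [Equiv.Perm.mul_apply, R.sr_sim, RD.W_neg hm.mem, hw, R.neg_neg]
  set d := c0 (R.sim b) with hd
  have h3 : m0 * S.ns b 1 = S.ns b d * m0 := by
    have a1 := h0.conj (R.sim b) 1
    have a2 := h0.conj (R.neg (R.sim b)) (-1)
    rw [RD.W_neg h0.mem, ← inv_eq_of_mul_eq_one_right (h0.neg (R.sim b))] at a2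
    rw [hv] at a1 a2
    simp only [ns, Units.val_one, inv_one]
    rw [← mul_assoc, ← mul_assoc, a1, mul_assoc _ m0, a2, ← mul_assoc, mul_assoc _ m0, a1]
    simp [mul_assoc, hd]
  have h4 : S.h (R.coch (R.sim b) (-d⁻¹)) * (m0 * m0) = 1 := by
    have a1 : S.ns b 1 * S.ns b d = S.h (R.coch (R.sim b) (-d⁻¹)) := by
      have := S.ns_h b (-1) (-d⁻¹)
      rw [ns_neg, inv_mul_eq_iff_eq_mul] at this
      rw [this]; simp
    rw [← a1, mul_assoc, ← mul_assoc (S.ns b d), ← h3, mul_assoc m0, ← mul_assoc, ← e0, h2]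
  have h5 := ((S.mon_h (R.coch (R.sim b) (-d⁻¹))).mul (h0.mul h0))
  rw [h4] at h5
  have h6 := h5.coef_unique Mon.one g
  simp only [Equiv.Perm.mul_apply (w * R.sr b), hg, R.chi_coch, Pi.one_apply] at h6
  have h7 : c (R.sim b) = -d := by
    have a1 := hn.mul h0
    rw [← e0] at a1
    rw [hm.coef_unique a1]
    simp only [hv, S.η_sim, hd]
    simp
  obtain ⟨k, hk⟩ := hodd
  rw [hk, _root_.zpow_add, zpow_one, two_mul, _root_.zpow_add] at h6
  have h8 : -d = (-d⁻¹) ^ k * c0 g * ((-d⁻¹) ^ k * c0 g) := by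
    have : -d * -d⁻¹ = 1 := by simp
    calc -d = -d * ((-d⁻¹) ^ k * (-d⁻¹) ^ k * -d⁻¹ * (c0 g * c0 g)) := by rw [h6, mul_one]
      _ = (-d * -d⁻¹) * ((-d⁻¹) ^ k * c0 g * ((-d⁻¹) ^ k * c0 g)) := by
        simp only [mul_assoc, mul_comm, mul_left_comm]
      _ = _ := by rw [this, one_mul]
  exact ⟨_, by rw [h7, h8, Units.val_mul]⟩

theorem isSquare_mul_of_not [Fintype F] {a b : F} (ha : ¬ IsSquare a) (hb : ¬ IsSquare b) :
    IsSquare (a * b) := by
  classical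
  have ha0 : a ≠ 0 := by rintro rfl; exact ha ⟨0, by simp⟩
  have hb0 : b ≠ 0 := by rintro rfl; exact hb ⟨0, by simp⟩
  rw [← quadraticChar_neg_one_iff_not_isSquare] at ha hb
  rw [← quadraticChar_one_iff_isSquare (mul_ne_zero ha0 hb0), map_mul, ha, hb]
  norm_num

theorem two_ne_zero_of_odd [Fintype F] (hF : Odd (Fintype.card F)) : (2 : F) ≠ 0 := by
  apply Ring.two_ne_zero
  intro h
  have := FiniteField.even_card_of_char_two h
  rw [Nat.odd_iff] at hF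
  omega

theorem mon_conj_h [Fintype F] (hF : Odd (Fintype.card F)) (hJ : R.HJ) :
    ∀ (k : ℕ) {m : G} {w : Equiv.Perm (Fin n)} {c : Fin n → Fˣ}, S.Mon m w c → m * m = 1 →
      R.inv w < k → ∃ d, IsConj (S.h d) m := by
  have h2 := two_ne_zero_of_odd hF
  have hsq : ∀ {a b : G}, IsConj a b → a * a = 1 → b * b = 1 := by
    intro a b h ha
    obtain ⟨g, rfl⟩ := isConj_iff.1 h
    calc g * a * g⁻¹ * (g * a * g⁻¹) = g * (a * a) * g⁻¹ := by group
      _ = 1 := by rw [ha]; group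
  intro k
  induction k with
  | zero => intro m w c _ _ h; exact absurd h (Nat.not_lt_zero _)
  | succ k ih =>
    intro m w c hm hmm hk
    have step : ∀ {m : G} {c : Fin n → Fˣ}, S.Mon m w c → m * m = 1 → ∀ i,
        w (R.sim i) = R.neg (R.sim i) → IsSquare (c (R.sim i) : F) → ∃ d, IsConj (S.h d) m := by
      intro m c hm hmm i hi hs
      obtain ⟨f, hf⟩ := hm.sq_step h2 hi hs
      obtain ⟨c', hc', -⟩ := S.mon_ns' i f
      obtain ⟨d, hd⟩ := ih (hc'.mul hm) (hsq hf hmm)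
        (by have := RD.inv_sr_mul_lt hm.mem hi; omega)
      exact ⟨d, hd.trans hf.symm⟩
    let J : Finset (Fin l) := univ.filter fun i => ¬ R.pos (w (R.sim i))
    have hJm : ∀ i, ¬ R.pos (w (R.sim i)) ↔ i ∈ J := fun i => by simp [J]
    rcases J.eq_empty_or_nonempty with hJe | hJe
    · have : w = 1 := RD.eq_one_of_no_descent hm.mem fun i => by
        by_contra h
        have := (hJm i).1 h
        rw [hJe] at this
        exact absurd this (notMem_empty _)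
      subst this
      exact ⟨_, by rw [← hm.eq_h]⟩
    by_cases hall : ∀ i ∈ J, w (R.sim i) = R.neg (R.sim i)
    · by_cases hev : ∀ i ∈ J, ∀ j ∈ J, Even (R.pair (R.sim j) (R.co (R.sim i)))
      · obtain ⟨h3, b, hb, g, hodd, hg⟩ := hJ J hJe hev
        exact step hm hmm b (hall b hb) (hm.sq_of_root hmm (hall b hb)
          (RD.fix_of_orth' hm.mem hJm hall h3 hb g hg) hodd)
      · push Not at hev
        obtain ⟨i, hi, j, hj, hodd⟩ := hev
        by_cases hsi : IsSquare (c (R.sim i) : F)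
        · exact step hm hmm i (hall i hi) hsi
        by_cases hsj : IsSquare (c (R.sim j) : F)
        · exact step hm hmm j (hall j hj) hsj
        obtain ⟨e, he, hc⟩ := hm.tw_step hF (hall j hj) hsj
        have h3 := (S.mon_h (R.coch (R.sim j) e)).mul hm
        rw [one_mul] at h3
        obtain ⟨d, hd⟩ := step h3 (hsq hc hmm) i (hall i hi) (by
          obtain ⟨a, ha⟩ := (Int.not_even_iff_odd.1 hodd).neg
          simp only [hall i hi, R.chi_coch, R.co_neg', map_neg, ha]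
          rw [_root_.zpow_add, zpow_one, two_mul, _root_.zpow_add, mul_assoc, Units.val_mul,
            Units.val_mul, Units.val_mul]
          exact (IsSquare.mul_self _).mul (isSquare_mul_of_not he hsi))
        exact ⟨d, hd.trans hc.symm⟩
    · push Not at hall
      obtain ⟨i, hi, hne⟩ := hall
      have h3 := ((S.mon_ns i).mul hm).mul (S.mon_ns i).inv
      rw [R.sr_inv] at h3
      have hc : IsConj m (S.ns i 1 * m * (S.ns i 1)⁻¹) := isConj_iff.2 ⟨_, rfl⟩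
      obtain ⟨d, hd⟩ := ih h3 (hsq hc hmm) (by
        rcases RD.inv_conj_lt hm.mem (hm.sq_W hmm) ((hJm i).2 hi) with h | h
        · omega
        · exact absurd h hne)
      exact ⟨d, hd.trans hc.symm⟩

variable (S)

theorem inv_conj_h [Fintype F] (hF : Odd (Fintype.card F)) (hJ : R.HJ) {u : G} (hu : u * u = 1) :
    ∃ d, IsConj (S.h d) u := by
  obtain ⟨m, w, c, hm, hc⟩ := S.inv_conj_mon hF hu
  obtain ⟨g, hg⟩ := isConj_iff.1 hc.symm
  have hmm : m * m = 1 := by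
    calc m * m = g * (u * u) * g⁻¹ := by rw [← hg]; group
      _ = 1 := by rw [hu]; group
  obtain ⟨d, hd⟩ := mon_conj_h hF hJ _ hm hmm (Nat.lt_succ_self _)
  exact ⟨d, hd.trans hc⟩

end Sys

end Cfsg.Agent.Chev
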