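import Mathlib

/-! Abstract root data (integer tables with checkable axioms) and the Weyl group. -/

set_option autoImplicit false

namespace Cfsg.Agent.Chev

open Finset

structure RD (l n : ℕ) where
  co : Fin n → Fin l → ℤ
  neg : Fin n → Fin n
  sim : Fin l → Fin n
  B : Fin l → Fin l → ℤ
  len : Fin n → ℤ
  A : Fin n → Fin l → ℤ
  rs : Fin l → Fin n → Fin n
  co_inj : Function.Injective co
  co_neg : ∀ r j, co (neg r) j = - co r j
  co_sim : ∀ i j, co (sim i) j = if j = i then 1 else 0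
  sign : ∀ r, (∀ j, 0 ≤ co r j) ∨ (∀ j, co r j ≤ 0)
  B_symm : ∀ i j, B i j = B j i
  len_pos : ∀ r, 0 < len r
  len_A : ∀ r j, len r * A r j = ∑ i, co r i * B i j
  A_self : ∀ r, ∑ j, A r j * co r j = 2
  co_rs : ∀ i s j, co (rs i s) j = co s j - (if j = i then ∑ k, A (sim i) k * co s k else 0)
  rs_pos : ∀ i r, 0 < ∑ j, co r j → r ≠ sim i → 0 < ∑ j, co (rs i r) j
  unimod : ∀ j, ∃ m : Fin l → ℤ, ∀ k, ∑ i, m i * A (sim i) k = if k = j then 1 else 0

namespace RD

variable {l n : ℕ} (R : RD l n)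

/-- the pairing of a lattice vector with the coroot of `r` -/
def pair (r : Fin n) : (Fin l → ℤ) →+ ℤ where
  toFun v := ∑ j, R.A r j * v j
  map_zero' := by simp
  map_add' u v := by simp [mul_add, Finset.sum_add_distrib]

/-- height -/
def htv (l : ℕ) : (Fin l → ℤ) →+ ℤ where
  toFun v := ∑ j, v j
  map_zero' := by simp
  map_add' u v := by simp [Finset.sum_add_distrib]

def ht (r : Fin n) : ℤ := htv l (R.co r)

def pos (r : Fin n) : Prop := 0 < R.ht r

instance (r : Fin n) : Decidable (R.pos r) := inferInstanceAs (Decidable (0 < R.ht r))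

def bil (u v : Fin l → ℤ) : ℤ := ∑ j, (∑ i, u i * R.B i j) * v j

theorem pair_apply (r : Fin n) (v : Fin l → ℤ) : R.pair r v = ∑ j, R.A r j * v j := rfl
theorem htv_apply (v : Fin l → ℤ) : htv l v = ∑ j, v j := rfl
theorem ht_def (r : Fin n) : R.ht r = ∑ j, R.co r j := rfl

theorem bil_symm (u v : Fin l → ℤ) : R.bil u v = R.bil v u := by
  unfold bil
  simp only [Finset.sum_mul]
  rw [Finset.sum_comm]
  refine Finset.sum_congr rfl fun i _ => Finset.sum_congr rfl fun j _ => ?_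
  rw [R.B_symm i j]; ring

theorem len_pair (r : Fin n) (v : Fin l → ℤ) : R.len r * R.pair r v = R.bil (R.co r) v := by
  rw [pair_apply, Finset.mul_sum, bil]
  refine Finset.sum_congr rfl fun j _ => ?_
  rw [← R.len_A]; ring

theorem bil_sub_smul_left (u w v : Fin l → ℤ) (a : ℤ) :
    R.bil (u - a • w) v = R.bil u v - a * R.bil w v := by
  unfold bil
  rw [Finset.mul_sum, ← Finset.sum_sub_distrib]
  refine Finset.sum_congr rfl fun j _ => ?_
  simp only [Pi.sub_apply, Pi.smul_apply, smul_eq_mul, sub_mul, Finset.sum_sub_distrib, mul_assoc,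
    ← Finset.mul_sum]

theorem bil_sub_smul_right (u w v : Fin l → ℤ) (a : ℤ) :
    R.bil v (u - a • w) = R.bil v u - a * R.bil v w := by
  rw [R.bil_symm, bil_sub_smul_left, R.bil_symm u, R.bil_symm w]

theorem pair_self (r : Fin n) : R.pair r (R.co r) = 2 := R.A_self r

theorem co_neg' (r : Fin n) : R.co (R.neg r) = - R.co r := funext (R.co_neg r)

theorem neg_neg (r : Fin n) : R.neg (R.neg r) = r :=
  R.co_inj (by rw [co_neg', co_neg', _root_.neg_neg])

theorem neg_inj {r s : Fin n} (h : R.neg r = R.neg s) : r = s := by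
  rw [← R.neg_neg r, h, R.neg_neg]

theorem ht_neg (r : Fin n) : R.ht (R.neg r) = - R.ht r := by
  unfold ht; rw [co_neg', map_neg]

theorem co_ne_zero (r : Fin n) : R.co r ≠ 0 := by
  intro h
  have := R.pair_self r
  rw [h, map_zero] at this
  exact absurd this (by norm_num)

theorem ht_ne_zero (r : Fin n) : R.ht r ≠ 0 := by
  intro h
  apply R.co_ne_zero r
  rw [ht_def] at h
  rcases R.sign r with hs | hs
  · funext j
    exact (Finset.sum_eq_zero_iff_of_nonneg (fun j _ => hs j)).1 h j (mem_univ j)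
  · funext j
    exact (Finset.sum_eq_zero_iff_of_nonpos (fun j _ => hs j)).1 h j (mem_univ j)

theorem pos_neg (r : Fin n) : R.pos (R.neg r) ↔ ¬ R.pos r := by
  unfold pos
  rw [ht_neg]
  have := R.ht_ne_zero r
  omega

theorem not_pos_iff (r : Fin n) : ¬ R.pos r ↔ R.ht r < 0 := by
  unfold pos
  have := R.ht_ne_zero r
  omega

theorem neg_ne (r : Fin n) : R.neg r ≠ r := by
  intro h
  have := R.pos_neg r
  rw [h] at this
  exact iff_not_self this

theorem nonneg_of_pos {r : Fin n} (h : R.pos r) (j : Fin l) : 0 ≤ R.co r j := by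
  rcases R.sign r with hs | hs
  · exact hs j
  · have : R.ht r ≤ 0 := by rw [ht_def]; exact Finset.sum_nonpos fun j _ => hs j
    unfold pos at h; omega

theorem co_sim' (i : Fin l) : R.co (R.sim i) = Pi.single i 1 := by
  funext j; rw [R.co_sim, Pi.single_apply]

theorem ht_sim (i : Fin l) : R.ht (R.sim i) = 1 := by
  rw [ht_def, co_sim']; simp [Pi.single_apply]

theorem pos_sim (i : Fin l) : R.pos (R.sim i) := by
  unfold pos; rw [ht_sim]; norm_num

theorem sim_inj {i j : Fin l} (h : R.sim i = R.sim j) : i = j := by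
  have := R.co_sim i i
  rw [h, R.co_sim] at this
  by_contra hne
  simp [hne] at this

theorem co_rs' (i : Fin l) (s : Fin n) :
    R.co (R.rs i s) = R.co s - R.pair (R.sim i) (R.co s) • R.co (R.sim i) := by
  funext j
  rw [R.co_rs, Pi.sub_apply, Pi.smul_apply, R.co_sim, pair_apply]
  split_ifs <;> simp

theorem bil_self (r : Fin n) : R.bil (R.co r) (R.co r) = 2 * R.len r := by
  rw [← len_pair, pair_self, mul_comm]

theorem len_neg (r : Fin n) : R.len (R.neg r) = R.len r := by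
  have h1 := R.bil_self (R.neg r)
  have h2 := R.bil_self r
  have h3 : R.bil (R.co (R.neg r)) (R.co (R.neg r)) = R.bil (R.co r) (R.co r) := by
    rw [co_neg']; unfold bil
    simp
  omega

theorem pair_neg (r : Fin n) (v : Fin l → ℤ) : R.pair (R.neg r) v = - R.pair r v := by
  have h1 := R.len_pair (R.neg r) v
  have h2 := R.len_pair r v
  have h3 : R.bil (R.co (R.neg r)) v = - R.bil (R.co r) v := by
    rw [co_neg']; unfold bil
    simp
  rw [len_neg, h3, ← h2] at h1
  have := R.len_pos r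
  have h4 : R.len r * (R.pair (R.neg r) v + R.pair r v) = 0 := by rw [mul_add, h1]; ring
  rcases mul_eq_zero.1 h4 with h | h <;> omega

theorem pair_symm (r s : Fin n) :
    R.len r * R.pair r (R.co s) = R.len s * R.pair s (R.co r) := by
  rw [len_pair, len_pair, bil_symm]

theorem pair_eq_zero_comm {r s : Fin n} (h : R.pair r (R.co s) = 0) : R.pair s (R.co r) = 0 := by
  have h1 := R.pair_symm r s
  rw [h, mul_zero] at h1
  have := R.len_pos s
  rcases mul_eq_zero.1 h1.symm with h | h <;> omega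

/-- the linear reflection attached to a root -/
def rlin (r : Fin n) : (Fin l → ℤ) →+ (Fin l → ℤ) where
  toFun v := v - R.pair r v • R.co r
  map_zero' := by simp
  map_add' u v := by rw [map_add, add_smul]; abel

theorem rlin_apply (r : Fin n) (v : Fin l → ℤ) : R.rlin r v = v - R.pair r v • R.co r := rfl

theorem bil_rlin (r : Fin n) (u v : Fin l → ℤ) : R.bil (R.rlin r u) (R.rlin r v) = R.bil u v := by
  rw [rlin_apply, rlin_apply, bil_sub_smul_left, bil_sub_smul_right, bil_sub_smul_right, bil_self,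
    R.bil_symm u (R.co r), ← len_pair, ← len_pair]
  ring

theorem rlin_rlin (r : Fin n) (v : Fin l → ℤ) : R.rlin r (R.rlin r v) = v := by
  rw [rlin_apply, rlin_apply, map_sub, map_zsmul, pair_self, smul_eq_mul]
  have : R.pair r v - R.pair r v * 2 = - R.pair r v := by ring
  rw [this, neg_smul]; abel

theorem rs_rs (i : Fin l) (s : Fin n) : R.rs i (R.rs i s) = s := by
  apply R.co_inj
  rw [co_rs', co_rs', ← rlin_apply, ← rlin_apply, rlin_rlin]

/-- simple reflection as a permutation of the roots -/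
def sr (i : Fin l) : Equiv.Perm (Fin n) := ⟨R.rs i, R.rs i, R.rs_rs i, R.rs_rs i⟩

theorem sr_apply (i : Fin l) (s : Fin n) : R.sr i s = R.rs i s := rfl

theorem sr_mul_self (i : Fin l) : R.sr i * R.sr i = 1 := Equiv.ext fun s => R.rs_rs i s

theorem sr_inv (i : Fin l) : (R.sr i)⁻¹ = R.sr i := inv_eq_of_mul_eq_one_right (R.sr_mul_self i)

theorem co_sr (i : Fin l) (s : Fin n) : R.co (R.sr i s) = R.rlin (R.sim i) (R.co s) := R.co_rs' i s

theorem sr_sim (i : Fin l) : R.sr i (R.sim i) = R.neg (R.sim i) := by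
  apply R.co_inj
  rw [co_sr, rlin_apply, pair_self, co_neg', two_smul]; abel

theorem sr_pos (i : Fin l) {r : Fin n} (h : R.pos r) (hne : r ≠ R.sim i) : R.pos (R.sr i r) :=
  R.rs_pos i r h hne

/-- The Weyl group. -/
def W : Subgroup (Equiv.Perm (Fin n)) := Subgroup.closure (Set.range R.sr)

theorem sr_mem (i : Fin l) : R.sr i ∈ R.W := Subgroup.subset_closure ⟨i, rfl⟩

theorem W_ind {P : Equiv.Perm (Fin n) → Prop} (h1 : P 1)
    (hm : ∀ i w, w ∈ R.W → P w → P (R.sr i * w)) {w : Equiv.Perm (Fin n)} (hw : w ∈ R.W) : P w := by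
  induction hw using Subgroup.closure_induction_left with
  | one => exact h1
  | mul_left x hx y hy ih => obtain ⟨i, rfl⟩ := hx; exact hm i y hy ih
  | inv_mul_cancel x hx y hy ih => obtain ⟨i, rfl⟩ := hx; rw [sr_inv]; exact hm i y hy ih

theorem exists_lin {w : Equiv.Perm (Fin n)} (hw : w ∈ R.W) :
    ∃ L : (Fin l → ℤ) →+ (Fin l → ℤ), (∀ s, R.co (w s) = L (R.co s)) ∧
      ∀ u v, R.bil (L u) (L v) = R.bil u v := by
  refine R.W_ind (P := fun w => ∃ L : (Fin l → ℤ) →+ (Fin l → ℤ), (∀ s, R.co (w s) = L (R.co s)) ∧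
      ∀ u v, R.bil (L u) (L v) = R.bil u v) ⟨AddMonoidHom.id _, fun _ => rfl, fun _ _ => rfl⟩ ?_ hw
  rintro i w - ⟨L, h1, h2⟩
  refine ⟨(R.rlin (R.sim i)).comp L, fun s => ?_, fun u v => ?_⟩
  · rw [Equiv.Perm.mul_apply, co_sr, h1]; rfl
  · rw [AddMonoidHom.comp_apply, AddMonoidHom.comp_apply, bil_rlin, h2]

variable {R}

theorem W_neg {w : Equiv.Perm (Fin n)} (hw : w ∈ R.W) (s : Fin n) : w (R.neg s) = R.neg (w s) := by
  obtain ⟨L, h1, -⟩ := R.exists_lin hw
  apply R.co_inj
  rw [h1, co_neg', co_neg', map_neg, h1]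

theorem W_len {w : Equiv.Perm (Fin n)} (hw : w ∈ R.W) (s : Fin n) : R.len (w s) = R.len s := by
  obtain ⟨L, h1, h2⟩ := R.exists_lin hw
  have a := R.bil_self (w s)
  have b := R.bil_self s
  rw [h1, h2] at a
  omega

theorem W_pair {w : Equiv.Perm (Fin n)} (hw : w ∈ R.W) (r s : Fin n) :
    R.pair (w r) (R.co (w s)) = R.pair r (R.co s) := by
  obtain ⟨L, h1, h2⟩ := R.exists_lin hw
  have a := R.len_pair (w r) (R.co (w s))
  have b := R.len_pair r (R.co s)
  rw [W_len hw, h1 r, h1 s, h2, ← b, ← h1 s] at a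
  exact mul_left_cancel₀ (R.len_pos r).ne' a

theorem W_rel {w : Equiv.Perm (Fin n)} (hw : w ∈ R.W) {g r s : Fin n} {i j : ℤ}
    (h : R.co g = i • R.co r + j • R.co s) : R.co (w g) = i • R.co (w r) + j • R.co (w s) := by
  obtain ⟨L, h1, -⟩ := R.exists_lin hw
  rw [h1, h1, h1, h, map_add, map_zsmul, map_zsmul]

theorem W_ext {w : Equiv.Perm (Fin n)} (hw : w ∈ R.W) (h : ∀ i, w (R.sim i) = R.sim i) : w = 1 := by
  obtain ⟨L, h1, -⟩ := R.exists_lin hw
  have hL : ∀ i, L (Pi.single i 1) = Pi.single i 1 := fun i => by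
    rw [← co_sim', ← h1, h]
  have : ∀ v, L v = v := fun v => by
    have hv : v = ∑ i, v i • (Pi.single i 1 : Fin l → ℤ) := by
      funext j; simp [Finset.sum_apply, Pi.single_apply]
    conv_lhs => rw [hv]
    rw [map_sum]
    simp only [map_zsmul, hL]
    exact hv.symm
  ext s
  have : w s = s := R.co_inj (by rw [h1, this])
  simp [this]

/-- a permutation acting as the reflection in `r` -/
def IsRefl (R : RD l n) (r : Fin n) (σ : Equiv.Perm (Fin n)) : Prop :=
  ∀ s, R.co (σ s) = R.co s - R.pair r (R.co s) • R.co r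

theorem IsRefl.conj {r : Fin n} {σ w : Equiv.Perm (Fin n)} (h : R.IsRefl r σ) (hw : w ∈ R.W) :
    R.IsRefl (w r) (w * σ * w⁻¹) := by
  intro s
  have h1 : R.co (σ (w⁻¹ s)) = (1 : ℤ) • R.co (w⁻¹ s) + (-R.pair r (R.co (w⁻¹ s))) • R.co r := by
    rw [h, one_smul, neg_smul, sub_eq_add_neg]
  have h2 := W_rel hw h1
  rw [← W_pair hw r (w⁻¹ s)] at h2
  simp only [Equiv.Perm.mul_apply]
  rw [h2]
  simp [sub_eq_add_neg]

theorem IsRefl.unique {r : Fin n} {σ τ : Equiv.Perm (Fin n)} (h : R.IsRefl r σ) (h' : R.IsRefl r τ) :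
    σ = τ := by
  ext s
  have : σ s = τ s := R.co_inj (by rw [h, h'])
  rw [this]

theorem isRefl_sr (R : RD l n) (i : Fin l) : R.IsRefl (R.sim i) (R.sr i) := fun s => R.co_rs' i s

theorem IsRefl.self {r : Fin n} {σ : Equiv.Perm (Fin n)} (h : R.IsRefl r σ) : σ r = R.neg r := by
  apply R.co_inj
  rw [h, pair_self, co_neg', two_smul]; abel

theorem IsRefl.neg {r : Fin n} {σ : Equiv.Perm (Fin n)} (h : R.IsRefl r σ) :
    R.IsRefl (R.neg r) σ := by
  intro s
  rw [h, pair_neg, co_neg', neg_smul, smul_neg, _root_.neg_neg]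

theorem IsRefl.fix {r s : Fin n} {σ : Equiv.Perm (Fin n)} (h : R.IsRefl r σ)
    (hs : R.pair r (R.co s) = 0) : σ s = s := by
  apply R.co_inj
  rw [h, hs, zero_smul, sub_zero]

theorem IsRefl.ht {r : Fin n} {σ : Equiv.Perm (Fin n)} (h : R.IsRefl r σ) (s : Fin n) :
    R.ht (σ s) = R.ht s - R.pair r (R.co s) * R.ht r := by
  unfold RD.ht
  rw [h, map_sub, map_zsmul, smul_eq_mul]

theorem exists_descent (R : RD l n) {r : Fin n} (h : R.pos r) :
    ∃ i, 0 < R.pair (R.sim i) (R.co r) := by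
  by_contra hc
  push Not at hc
  have h1 := R.bil_self r
  have h2 : R.bil (R.co r) (R.co r) = ∑ j, R.bil (R.co (R.sim j)) (R.co r) * R.co r j := by
    conv_lhs => unfold bil
    refine Finset.sum_congr rfl fun j _ => ?_
    rw [R.bil_symm, co_sim']
    congr 1
    unfold bil
    simp [Pi.single_apply]
  have h3 : ∑ j, R.bil (R.co (R.sim j)) (R.co r) * R.co r j ≤ 0 := by
    refine Finset.sum_nonpos fun j _ => ?_
    rw [← len_pair]
    exact mul_nonpos_of_nonpos_of_nonneg
      (mul_nonpos_of_nonneg_of_nonpos (R.len_pos _).le (hc j)) (R.nonneg_of_pos h j)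
  have := R.len_pos r
  omega

theorem exists_W_sim (R : RD l n) (r : Fin n) : ∃ w ∈ R.W, ∃ i, w (R.sim i) = r := by
  have key : ∀ k : ℕ, ∀ r, R.pos r → R.ht r ≤ k → ∃ w ∈ R.W, ∃ i, w (R.sim i) = r := by
    intro k
    induction k with
    | zero => intro r h1 h2; unfold pos at h1; omega
    | succ k ih =>
      intro r h1 h2
      obtain ⟨i, hi⟩ := R.exists_descent h1
      by_cases hr : r = R.sim i
      · exact ⟨1, one_mem _, i, hr.symm⟩
      · have h3 := (R.isRefl_sr i).ht r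
        rw [ht_sim] at h3
        obtain ⟨w, hw, j, hj⟩ := ih (R.sr i r) (R.sr_pos i h1 hr) (by push_cast at h2; omega)
        refine ⟨R.sr i * w, mul_mem (R.sr_mem i) hw, j, ?_⟩
        rw [Equiv.Perm.mul_apply, hj]; exact R.rs_rs i r
  by_cases h : R.pos r
  · exact key (R.ht r).toNat r h (by omega)
  · have h' : R.pos (R.neg r) := (R.pos_neg r).2 h
    obtain ⟨w, hw, i, hi⟩ := key (R.ht (R.neg r)).toNat _ h' (by omega)
    refine ⟨w * R.sr i, mul_mem hw (R.sr_mem i), i, ?_⟩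
    rw [Equiv.Perm.mul_apply, sr_sim, W_neg hw, hi, neg_neg]

theorem exists_refl (R : RD l n) (r : Fin n) : ∃ σ ∈ R.W, R.IsRefl r σ := by
  obtain ⟨w, hw, i, rfl⟩ := R.exists_W_sim r
  exact ⟨_, mul_mem (mul_mem hw (R.sr_mem i)) (inv_mem hw), (R.isRefl_sr i).conj hw⟩

theorem exchange (R : RD l n) (L : List (Fin l)) (k : Fin l)
    (h : ¬ R.pos ((L.map R.sr).prod (R.sim k))) :
    ∃ L' : List (Fin l), L'.length < L.length ∧ (L.map R.sr).prod * R.sr k = (L'.map R.sr).prod := by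
  induction L with
  | nil => exact absurd (R.pos_sim k) h
  | cons j L ih =>
    have hW : (L.map R.sr).prod ∈ R.W := Subgroup.list_prod_mem _ (by
      intro x hx
      obtain ⟨i, -, rfl⟩ := List.mem_map.1 hx
      exact R.sr_mem i)
    rw [List.map_cons, List.prod_cons] at h ⊢
    by_cases hp : R.pos ((L.map R.sr).prod (R.sim k))
    · have h1 : (L.map R.sr).prod (R.sim k) = R.sim j := by
        by_contra hne
        exact h (R.sr_pos j hp hne)
      have h2 := (R.isRefl_sr k).conj hW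
      rw [h1] at h2
      have h3 := h2.unique (R.isRefl_sr j)
      refine ⟨L, by simp, ?_⟩
      rw [← h3]
      simp [mul_assoc, R.sr_mul_self]
    · obtain ⟨L', h1, h2⟩ := ih hp
      refine ⟨j :: L', by simpa using h1, ?_⟩
      rw [List.map_cons, List.prod_cons, mul_assoc, h2]

theorem eq_one_of_no_descent {w : Equiv.Perm (Fin n)} (hw : w ∈ R.W)
    (h : ∀ i, R.pos (w (R.sim i))) : w = 1 := by
  have h1 : ∃ L : List (Fin l), w = (L.map R.sr).prod := by
    refine R.W_ind (P := fun w => ∃ L : List (Fin l), w = (L.map R.sr).prod) ⟨[], by simp⟩ ?_ hw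
    rintro i w - ⟨L, rfl⟩
    exact ⟨i :: L, by simp⟩
  obtain ⟨L, rfl⟩ := h1
  have key : ∀ k : ℕ, ∀ L : List (Fin l), L.length ≤ k →
      (∀ i, R.pos ((L.map R.sr).prod (R.sim i))) → (L.map R.sr).prod = 1 := by
    intro k
    induction k with
    | zero => intro L h1 _; rw [List.length_eq_zero_iff.1 (Nat.le_zero.1 h1)]; simp
    | succ k ih =>
      intro L h1 h2
      rcases List.eq_nil_or_concat L with rfl | ⟨L0, j, rfl⟩
      · simp
      · have hW : (L0.map R.sr).prod ∈ R.W := Subgroup.list_prod_mem _ (by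
          intro x hx
          obtain ⟨i, -, rfl⟩ := List.mem_map.1 hx
          exact R.sr_mem i)
        have e : ((L0.concat j).map R.sr).prod = (L0.map R.sr).prod * R.sr j := by simp
        have h3 := h2 j
        rw [e, Equiv.Perm.mul_apply, sr_sim, W_neg hW, pos_neg] at h3
        obtain ⟨L', h4, h5⟩ := R.exchange L0 j h3
        rw [e, h5] at h2 ⊢
        exact ih L' (by simp at h1; omega) h2
  exact key _ L le_rfl h

/-- number of inversions -/
def inv (R : RD l n) (w : Equiv.Perm (Fin n)) : ℕ :=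
  (univ.filter fun r => R.pos r ∧ ¬ R.pos (w r)).card

theorem inv_inv {w : Equiv.Perm (Fin n)} (hw : w ∈ R.W) : R.inv w⁻¹ = R.inv w := by
  unfold inv
  symm
  refine Finset.card_bij (fun r _ => R.neg (w r)) ?_ ?_ ?_
  · intro r hr
    simp only [mem_filter, mem_univ, true_and] at hr ⊢
    rw [pos_neg, W_neg (inv_mem hw), pos_neg]
    simpa using ⟨hr.2, hr.1⟩
  · intro a _ b _ h
    exact w.injective (R.neg_inj h)
  · intro b hb
    simp only [mem_filter, mem_univ, true_and] at hb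
    refine ⟨R.neg (w⁻¹ b), ?_, ?_⟩
    · simp only [mem_filter, mem_univ, true_and]
      rw [pos_neg, W_neg hw, pos_neg]
      simpa using ⟨hb.2, hb.1⟩
    · rw [W_neg hw, neg_neg]; simp

theorem inv_mul_sr_lt {w : Equiv.Perm (Fin n)} (hw : w ∈ R.W) {i : Fin l}
    (h : ¬ R.pos (w (R.sim i))) : R.inv (w * R.sr i) < R.inv w := by
  unfold inv
  have h1 : (univ.filter fun r => R.pos r ∧ ¬ R.pos ((w * R.sr i) r)).card ≤
      ((univ.filter fun r => R.pos r ∧ ¬ R.pos (w r)).erase (R.sim i)).card := by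
    refine Finset.card_le_card_of_injOn (R.sr i) ?_ (R.sr i).injective.injOn
    intro r hr
    have hr := (mem_filter.1 (mem_coe.1 hr)).2
    rw [Equiv.Perm.mul_apply] at hr
    have hne : r ≠ R.sim i := by
      rintro rfl
      rw [sr_sim, W_neg hw, pos_neg] at hr
      exact hr.2 h
    refine mem_coe.2 (mem_erase.2 ⟨fun h2 => ?_,
      mem_filter.2 ⟨mem_univ _, R.sr_pos i hr.1 hne, hr.2⟩⟩)
    have h3 : r = R.neg (R.sim i) := by
      rw [← sr_sim, ← h2]; exact (R.rs_rs i r).symm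
    have := hr.1
    rw [h3, pos_neg] at this
    exact this (R.pos_sim i)
  refine lt_of_le_of_lt h1 (Finset.card_erase_lt_of_mem ?_)
  simp only [mem_filter, mem_univ, true_and]
  exact ⟨R.pos_sim i, h⟩

theorem inv_conj_lt {w : Equiv.Perm (Fin n)} (hw : w ∈ R.W) (h2 : w * w = 1) {i : Fin l}
    (h : ¬ R.pos (w (R.sim i))) : R.inv (R.sr i * w * R.sr i) < R.inv w ∨
      w (R.sim i) = R.neg (R.sim i) := by
  by_cases hc : w (R.sim i) = R.neg (R.sim i)
  · exact Or.inr hc
  left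
  have hsw : R.sr i * w ∈ R.W := mul_mem (R.sr_mem i) hw
  have h3 : ¬ R.pos ((R.sr i * w) (R.sim i)) := by
    rw [Equiv.Perm.mul_apply, ← pos_neg, ← W_neg (R.sr_mem i)]
    refine R.sr_pos i ((R.pos_neg _).2 h) fun h4 => hc ?_
    have := congrArg R.neg h4
    rwa [neg_neg] at this
  have h4 := inv_mul_sr_lt hsw h3
  have h5 : R.inv (R.sr i * w) = R.inv (w * R.sr i) := by
    rw [← inv_inv hsw, mul_inv_rev, sr_inv, inv_eq_of_mul_eq_one_right h2]
  have h6 := inv_mul_sr_lt hw h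
  omega

theorem comm_of_neg {w : Equiv.Perm (Fin n)} (hw : w ∈ R.W) {b : Fin l}
    (hwb : w (R.sim b) = R.neg (R.sim b)) : w * R.sr b = R.sr b * w := by
  have := (R.isRefl_sr b).conj hw
  rw [hwb] at this
  exact mul_inv_eq_iff_eq_mul.1 (this.unique (R.isRefl_sr b).neg)

theorem desc_step {J : Finset (Fin l)} {b : Fin l} (hb : b ∉ J) {w : Equiv.Perm (Fin n)}
    (hw : w ∈ R.W) (h1 : ∀ i, ¬ R.pos (w (R.sim i)) ↔ i ∈ insert b J)
    (h2 : ∀ i ∈ insert b J, w (R.sim i) = R.neg (R.sim i))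
    (h3 : ∀ i ∈ insert b J, ∀ j ∈ insert b J, i ≠ j → R.pair (R.sim i) (R.co (R.sim j)) = 0) :
    (∀ i, ¬ R.pos ((w * R.sr b) (R.sim i)) ↔ i ∈ J) ∧
      ∀ i ∈ J, (w * R.sr b) (R.sim i) = R.neg (R.sim i) := by
  have hwb : w (R.sim b) = R.neg (R.sim b) := h2 b (mem_insert_self _ _)
  have hc' : w * R.sr b = R.sr b * w := comm_of_neg hw hwb
  have hJ : ∀ i ∈ J, (w * R.sr b) (R.sim i) = R.neg (R.sim i) := by
    intro i hi
    have hne : b ≠ i := by rintro rfl; exact hb hi
    rw [Equiv.Perm.mul_apply, (R.isRefl_sr b).fix (h3 b (mem_insert_self _ _) i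
      (mem_insert_of_mem hi) hne), h2 i (mem_insert_of_mem hi)]
  refine ⟨fun i => ⟨fun hi => ?_, fun hi => ?_⟩, hJ⟩
  · by_contra hiJ
    apply hi
    by_cases hib : i = b
    · subst hib
      rw [Equiv.Perm.mul_apply, sr_sim, W_neg hw, hwb, neg_neg]
      exact R.pos_sim i
    · have hp : R.pos (w (R.sim i)) := by
        by_contra hn
        rcases mem_insert.1 ((h1 i).1 hn) with h | h
        · exact hib h
        · exact hiJ h
      rw [hc', Equiv.Perm.mul_apply]
      refine R.sr_pos b hp fun h4 => ?_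
      have h5 : w (R.sim i) = w (R.neg (R.sim b)) := by rw [W_neg hw, hwb, neg_neg, h4]
      have h6 := R.pos_sim i
      rw [w.injective h5, pos_neg] at h6
      exact h6 (R.pos_sim b)
  · rw [hJ i hi, pos_neg, not_not]
    exact R.pos_sim i

/-- An element of `W` whose descents are negated and mutually orthogonal fixes the roots
orthogonal to all of them. -/
theorem fix_of_orth (J : Finset (Fin l)) : ∀ {w : Equiv.Perm (Fin n)}, w ∈ R.W →
    (∀ i, ¬ R.pos (w (R.sim i)) ↔ i ∈ J) → (∀ i ∈ J, w (R.sim i) = R.neg (R.sim i)) →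
    (∀ i ∈ J, ∀ j ∈ J, i ≠ j → R.pair (R.sim i) (R.co (R.sim j)) = 0) →
    ∀ g, (∀ j ∈ J, R.pair (R.sim j) (R.co g) = 0) → w g = g := by
  induction J using Finset.induction_on with
  | empty =>
    intro w hw h1 _ _ g _
    rw [eq_one_of_no_descent hw fun i => by simpa using h1 i]; rfl
  | insert b J hb ih =>
    intro w hw h1 h2 h3 g hg
    obtain ⟨h4, h5⟩ := desc_step hb hw h1 h2 h3
    have := ih (w := w * R.sr b) (mul_mem hw (R.sr_mem b)) h4 h5
      (fun i hi j hj => h3 i (mem_insert_of_mem hi) j (mem_insert_of_mem hj)) g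
      (fun j hj => hg j (mem_insert_of_mem hj))
    rw [Equiv.Perm.mul_apply, (R.isRefl_sr b).fix (hg b (mem_insert_self _ _))] at this
    exact this

theorem fix_of_orth' {J : Finset (Fin l)} {w : Equiv.Perm (Fin n)} (hw : w ∈ R.W)
    (h1 : ∀ i, ¬ R.pos (w (R.sim i)) ↔ i ∈ J) (h2 : ∀ i ∈ J, w (R.sim i) = R.neg (R.sim i))
    (h3 : ∀ i ∈ J, ∀ j ∈ J, i ≠ j → R.pair (R.sim i) (R.co (R.sim j)) = 0) {b : Fin l} (hb : b ∈ J)
    (g : Fin n) (hg : ∀ j ∈ J, j ≠ b → R.pair (R.sim j) (R.co g) = 0) : (w * R.sr b) g = g := by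
  rw [← Finset.insert_erase hb] at h1 h2 h3
  obtain ⟨h4, h5⟩ := desc_step (Finset.notMem_erase b J) hw h1 h2 h3
  exact fix_of_orth (J.erase b) (mul_mem hw (R.sr_mem b)) h4 h5
    (fun i hi j hj => h3 i (mem_insert_of_mem hi) j (mem_insert_of_mem hj)) g
    (fun j hj => hg j (mem_of_mem_erase hj) (mem_erase.1 hj).1)

theorem inv_sr_mul_lt {w : Equiv.Perm (Fin n)} (hw : w ∈ R.W) {i : Fin l}
    (h : w (R.sim i) = R.neg (R.sim i)) : R.inv (R.sr i * w) < R.inv w := by
  rw [← comm_of_neg hw h]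
  exact inv_mul_sr_lt hw (by rw [h, pos_neg, not_not]; exact R.pos_sim i)

/-- The parity condition on totally disconnected sets of simple roots. -/
def HJ (R : RD l n) : Prop := ∀ J : Finset (Fin l), J.Nonempty →
  (∀ i ∈ J, ∀ j ∈ J, Even (R.pair (R.sim j) (R.co (R.sim i)))) →
  (∀ i ∈ J, ∀ j ∈ J, i ≠ j → R.pair (R.sim i) (R.co (R.sim j)) = 0) ∧
    ∃ b ∈ J, ∃ g, Odd (R.pair (R.sim b) (R.co g)) ∧
      ∀ j ∈ J, j ≠ b → R.pair (R.sim j) (R.co g) = 0

end RD

end Cfsg.Agent.Chev
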