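import Cfsg.Agent.Lib.Chev.Inv

/-! The homomorphism from `SL(2, F)` attached to a root. -/

set_option autoImplicit false

namespace Cfsg.Agent.Chev

open Finset Matrix
open scoped MatrixGroups

namespace Sys

variable {l n : ℕ} {R : RD l n} {F : Type*} [Field F] {G : Type*} [Group G] (S : Sys R F G)

open Classical in
noncomputable def fm (i : Fin l) (a b c d : F) : G :=
  if hc : c = 0 then
    (if ha : a = 0 then 1 else S.x (R.sim i) (a * b) * S.h (R.coch (R.sim i) (Units.mk0 a ha)))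
  else S.x (R.sim i) (a / c) * S.ns i (-(Units.mk0 c hc)⁻¹) * S.x (R.sim i) (d / c)

theorem fm_zero (i : Fin l) (a : Fˣ) (b d : F) :
    S.fm i a b 0 d = S.x (R.sim i) (a * b) * S.h (R.coch (R.sim i) a) := by
  simp [fm]

theorem fm_ne (i : Fin l) (c : Fˣ) (a b d : F) :
    S.fm i a b c d = S.x (R.sim i) (a / c) * S.ns i (-c⁻¹) * S.x (R.sim i) (d / c) := by
  simp [fm]

theorem h_ns (i : Fin l) (k t : Fˣ) : S.h (R.coch (R.sim i) k) * S.ns i t = S.ns i (k * t) := by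
  rw [S.ns_eq' i t, S.ns_eq' i (k * t), ← mul_assoc, ← h_mul, R.coch_mul]

theorem fm_cases {a b c d : F} (h : a * d - b * c = 1) :
    (∃ a' : Fˣ, a = a' ∧ c = 0) ∨ ∃ c' : Fˣ, c = c' := by
  by_cases hc : c = 0
  · refine Or.inl ⟨Units.mk0 a ?_, rfl, hc⟩
    rintro rfl
    simp [hc] at h
  · exact Or.inr ⟨Units.mk0 c hc, rfl⟩

theorem fm_u (i : Fin l) {a b c d : F} (h : a * d - b * c = 1) (t : F) :
    S.fm i (a + t * c) (b + t * d) c d = S.x (R.sim i) t * S.fm i a b c d := by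
  rcases fm_cases h with ⟨a, rfl, rfl⟩ | ⟨c, rfl⟩
  · rw [mul_zero, add_zero, fm_zero, fm_zero, ← mul_assoc, ← S.x_add]
    congr 2
    linear_combination t * h
  · rw [fm_ne, fm_ne, ← mul_assoc, ← mul_assoc, ← S.x_add]
    congr 3
    have := c.ne_zero
    field_simp; ring

theorem fm_d (i : Fin l) {a b c d : F} (h : a * d - b * c = 1) (k : Fˣ) :
    S.fm i (k * a) (k * b) ((k : F)⁻¹ * c) ((k : F)⁻¹ * d) =
      S.h (R.coch (R.sim i) k) * S.fm i a b c d := by
  have hk := k.ne_zero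
  rcases fm_cases h with ⟨a, rfl, rfl⟩ | ⟨c, rfl⟩
  · rw [mul_zero, ← Units.val_mul, fm_zero, fm_zero, ← mul_assoc (S.h _), h_coch_x,
      mul_assoc _ (S.h _), ← h_mul, R.coch_mul]
    congr 2
    rw [Units.val_mul]; ring
  · have hc := c.ne_zero
    rw [← Units.val_inv_eq_inv_val, ← Units.val_mul, fm_ne, fm_ne, ← mul_assoc, ← mul_assoc,
      h_coch_x, mul_assoc _ (S.h _), h_ns]
    congr 2
    · congr 1
      simp only [Units.val_mul, Units.val_inv_eq_inv_val]; field_simp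
    · congr 1; simp [mul_comm]
    · simp only [Units.val_mul, Units.val_inv_eq_inv_val]; field_simp

theorem x_h (i : Fin l) (k : Fˣ) (t : F) : S.x (R.sim i) t * S.h (R.coch (R.sim i) k) =
    S.h (R.coch (R.sim i) k) * S.x (R.sim i) (((k : F) * k)⁻¹ * t) := by
  rw [h_coch_x, ← mul_assoc, mul_inv_cancel₀ (mul_ne_zero k.ne_zero k.ne_zero), one_mul]

theorem ns_one_ns (i : Fin l) (c : Fˣ) : S.ns i 1 * S.ns i (-c⁻¹) = S.h (R.coch (R.sim i) c) := by
  rw [ns_neg, S.ns_eq' i c⁻¹, _root_.mul_inv_rev, mul_inv_cancel_left, h_inv]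
  congr 1
  funext j; simp [RD.coch]

theorem fm_w (i : Fin l) {a b c d : F} (h : a * d - b * c = 1) :
    S.fm i c d (-a) (-b) = S.ns i 1 * S.fm i a b c d := by
  rcases fm_cases h with ⟨a, rfl, rfl⟩ | ⟨c, rfl⟩
  · have ha := a.ne_zero
    rw [← Units.val_neg, fm_ne, fm_zero, x_h, ← mul_assoc, ns_h, zero_div, x_zero, one_mul]
    congr 2
    · simp
    · rw [Units.val_neg]; field_simp
  have hc := c.ne_zero
  by_cases ha : a = 0
  · subst ha
    rw [neg_zero, fm_zero, fm_ne, zero_div, x_zero, one_mul, ← mul_assoc, ns_one_ns, h_coch_x]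
    congr 2
    field_simp
  · obtain ⟨a, rfl⟩ : ∃ a' : Fˣ, a = a' := ⟨Units.mk0 a ha, rfl⟩
    have h1 := x_neg_eq (S := S) i (c * a⁻¹)
    have e1 : -((1 : Fˣ) * (1 : Fˣ) : F)⁻¹ * (a / c) = -((c * a⁻¹ : Fˣ) : F)⁻¹ := by
      simp [div_eq_mul_inv]
    rw [← Units.val_neg, fm_ne, fm_ne, ← mul_assoc, ← mul_assoc, ns_x, e1, h1, mul_assoc _ (S.ns i 1),
      ns_one_ns, mul_assoc _ (S.x _ _) (S.h _), x_h, ← mul_assoc, mul_assoc _ _ (S.h _), ns_h,
      mul_assoc _ (S.x _ _) (S.x _ _), ← S.x_add]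
    congr 2
    · congr 1
      simp [div_eq_mul_inv]
    · congr 1; simp [mul_comm]
    · simp only [Units.val_neg, Units.val_mul, Units.val_inv_eq_inv_val]
      field_simp
      linear_combination -h

noncomputable def fS (i : Fin l) (M : SL(2, F)) : G := S.fm i (M 0 0) (M 0 1) (M 1 0) (M 1 1)

theorem det2 (M : SL(2, F)) : M 0 0 * M 1 1 - M 0 1 * M 1 0 = 1 := by
  have := M.det_coe
  rwa [Matrix.det_fin_two] at this

def uM (t : F) : SL(2, F) := ⟨!![1, t; 0, 1], by simp [Matrix.det_fin_two]⟩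
def dM (k : Fˣ) : SL(2, F) := ⟨!![(k : F), 0; 0, (k : F)⁻¹], by simp [Matrix.det_fin_two]⟩
def wM : SL(2, F) := ⟨!![0, 1; -1, 0], by simp [Matrix.det_fin_two]⟩

@[simp] theorem coe_uM (t : F) : ((uM t : SL(2, F)) : Matrix (Fin 2) (Fin 2) F) = !![1, t; 0, 1] := rfl
@[simp] theorem coe_dM (k : Fˣ) :
    ((dM k : SL(2, F)) : Matrix (Fin 2) (Fin 2) F) = !![(k : F), 0; 0, (k : F)⁻¹] := rfl
@[simp] theorem coe_wM : ((wM : SL(2, F)) : Matrix (Fin 2) (Fin 2) F) = !![0, 1; -1, 0] := rfl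

theorem fS_u (i : Fin l) (t : F) (M : SL(2, F)) : S.fS i (uM t * M) = S.x (R.sim i) t * S.fS i M := by
  rw [fS, fS, ← S.fm_u i (det2 M)]
  simp [Matrix.mul_apply, Fin.sum_univ_two]

theorem fS_d (i : Fin l) (k : Fˣ) (M : SL(2, F)) :
    S.fS i (dM k * M) = S.h (R.coch (R.sim i) k) * S.fS i M := by
  rw [fS, fS, ← S.fm_d i (det2 M)]
  simp [Matrix.mul_apply, Fin.sum_univ_two]

theorem fS_w (i : Fin l) (M : SL(2, F)) : S.fS i (wM * M) = S.ns i 1 * S.fS i M := by
  rw [fS, fS, ← S.fm_w i (det2 M)]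
  simp [Matrix.mul_apply, Fin.sum_univ_two]

theorem fS_one (i : Fin l) : S.fS i 1 = 1 := by
  have := S.fm_zero i 1 0 1
  have e : R.coch (R.sim i) (1 : Fˣ) = 1 := by funext j; simp [RD.coch]
  rw [mul_zero, x_zero, e, h_one, one_mul] at this
  rw [fS, ← this]
  simp

theorem SL2_dec (M : SL(2, F)) : (∃ t k, M = uM t * dM k) ∨ ∃ t k u, M = uM t * dM k * wM * uM u := by
  have h := det2 M
  rcases fm_cases h with ⟨a, h1, h2⟩ | ⟨c, h1⟩
  · refine Or.inl ⟨a * M 0 1, a, ?_⟩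
    have := a.ne_zero
    rw [h1, h2] at h
    ext i j
    fin_cases i <;> fin_cases j <;> simp [Matrix.mul_apply, Fin.sum_univ_two, h1, h2]
    · field_simp
    · field_simp; linear_combination h
  · refine Or.inr ⟨M 0 0 / c, -c⁻¹, M 1 1 / c, ?_⟩
    have := c.ne_zero
    rw [h1] at h
    ext i j
    fin_cases i <;> fin_cases j <;> simp [Matrix.mul_apply, Fin.sum_univ_two, h1]
    · field_simp; linear_combination -h
    · field_simp

/-- the homomorphism from `SL(2, F)` attached to a simple root -/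
noncomputable def phi (i : Fin l) : SL(2, F) →* G where
  toFun := S.fS i
  map_one' := S.fS_one i
  map_mul' M N := by
    rcases SL2_dec M with ⟨t, k, rfl⟩ | ⟨t, k, u, rfl⟩
    · rw [mul_assoc, fS_u, fS_d, fS_u, ← mul_one (dM k), fS_d, fS_one, mul_one, mul_assoc]
    · have := S.fS_u i u 1
      rw [mul_one, fS_one, mul_one] at this
      simp only [mul_assoc, fS_u, fS_d, fS_w, this]

theorem phi_u (i : Fin l) (t : F) : S.phi i (uM t) = S.x (R.sim i) t := by
  rw [← mul_one (uM t)]; exact (S.fS_u i t 1).trans (by rw [fS_one, mul_one])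

theorem phi_d (i : Fin l) (k : Fˣ) : S.phi i (dM k) = S.h (R.coch (R.sim i) k) := by
  rw [← mul_one (dM k)]; exact (S.fS_d i k 1).trans (by rw [fS_one, mul_one])

theorem phi_w (i : Fin l) : S.phi i wM = S.ns i 1 := by
  rw [← mul_one wM]; exact (S.fS_w i 1).trans (by rw [fS_one, mul_one])

theorem phi_range (i : Fin l) : (S.phi i).range = S.X {R.sim i, R.neg (R.sim i)} := by
  have h1 : ∀ t, S.x (R.sim i) t ∈ S.X {R.sim i, R.neg (R.sim i)} := fun t => S.x_mem (by simp) t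
  have h2 : ∀ t, S.ns i t ∈ S.X {R.sim i, R.neg (R.sim i)} := fun t =>
    mul_mem (mul_mem (h1 _) (S.x_mem (by simp) _)) (h1 _)
  have h3 : ∀ k, S.h (R.coch (R.sim i) k) ∈ S.X {R.sim i, R.neg (R.sim i)} := fun k => by
    rw [← ns_one_ns]; exact mul_mem (h2 _) (h2 _)
  apply le_antisymm
  · rintro _ ⟨M, rfl⟩
    rcases SL2_dec M with ⟨t, k, rfl⟩ | ⟨t, k, u, rfl⟩
    · rw [map_mul, phi_u, phi_d]; exact mul_mem (h1 _) (h3 _)
    · simp only [map_mul, phi_u, phi_d, phi_w]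
      exact mul_mem (mul_mem (mul_mem (h1 _) (h3 _)) (h2 _)) (h1 _)
  · refine (Subgroup.closure_le _).2 ?_
    rintro _ ⟨r, hr, t, rfl⟩
    simp only [mem_insert, mem_singleton] at hr
    rcases hr with rfl | rfl
    · exact ⟨_, S.phi_u i t⟩
    · refine ⟨wM * uM (-t) * wM⁻¹, ?_⟩
      rw [map_mul, map_mul, map_inv, phi_u, phi_w, ns_x]
      simp

theorem phi_inj (i : Fin l) (hg : ∃ g, Odd (R.pair (R.sim i) (R.co g))) :
    Function.Injective (S.phi i) := by
  rw [injective_iff_map_eq_one]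
  intro M hM
  rcases SL2_dec M with ⟨t, k, rfl⟩ | ⟨t, k, u, rfl⟩
  · rw [map_mul, phi_u, phi_d] at hM
    obtain ⟨h1, h2⟩ := S.B_unique (S.x_mem ((R.mem_posF _).2 (R.pos_sim i)) t) (one_mem _)
      (hM.trans (by rw [h_one, one_mul] : (1 : G) = 1 * S.h 1))
    obtain ⟨g, m, hm⟩ := hg
    have h3 := R.chi_coch (R.sim i) k (R.co g)
    have h4 := R.chi_coch (R.sim i) k (R.co (R.sim i))
    rw [h2, chi_one] at h3 h4
    rw [hm, _root_.zpow_add, _root_.zpow_mul, ← R.pair_self (R.sim i), ← h4] at h3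
    have h5 : k = 1 := by simpa using h3.symm
    rw [S.x_inj _ h1, h5]
    ext a b
    fin_cases a <;> fin_cases b <;> simp
  · simp only [map_mul, phi_u, phi_d, phi_w] at hM
    have := (S.mon_ns i).W_unique Mon.one
      (mul_mem (S.x_mem_Bor (R.pos_sim i) t) (S.h_mem_Bor (R.coch (R.sim i) k)))
      (inv_mem (S.x_mem_Bor (R.pos_sim i) u)) (by rw [one_mul, eq_inv_iff_mul_eq_one, hM])
    have h1 := R.sr_sim i
    rw [this] at h1
    exact absurd h1.symm (R.neg_ne _)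

theorem exists_phi (r : Fin n) (hg : ∃ g, Odd (R.pair r (R.co g))) :
    ∃ φ : SL(2, F) →* G, Function.Injective φ ∧ φ.range = S.X {r, R.neg r} ∧
      φ (-1) = S.h (R.coch r (-1)) := by
  obtain ⟨w, hw, i, rfl⟩ := R.exists_W_sim r
  obtain ⟨m, c, hm⟩ := S.exists_mon hw
  refine ⟨(MulAut.conj m).toMonoidHom.comp (S.phi i), (MulAut.conj m).injective.comp
    (S.phi_inj i ?_), ?_, ?_⟩
  · obtain ⟨g, hg⟩ := hg
    refine ⟨w⁻¹ g, ?_⟩
    rw [← RD.W_pair hw]; simpa using hg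
  · rw [MonoidHom.range_comp, phi_range]
    apply le_antisymm
    · rintro _ ⟨z, hz, rfl⟩
      refine hm.conj_X (fun r hr => ?_) hz
      simp only [mem_insert, mem_singleton] at hr ⊢
      rcases hr with rfl | rfl
      · exact Or.inl rfl
      · exact Or.inr (RD.W_neg hw _)
    · intro z hz
      refine ⟨m⁻¹ * z * m⁻¹⁻¹, hm.inv.conj_X (fun r hr => ?_) hz, by simp [mul_assoc]⟩
      simp only [mem_insert, mem_singleton] at hr ⊢
      rcases hr with rfl | rfl
      · exact Or.inl (by simp)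
      · exact Or.inr (by rw [← RD.W_neg hw]; simp)
  · have e : (-1 : SL(2, F)) = dM (-1) := by
      ext a b
      fin_cases a <;> fin_cases b <;> simp
    have e2 : R.act w (R.coch (w (R.sim i)) (-1 : Fˣ)) = R.coch (R.sim i) (-1) := by
      apply R.chi_ext
      intro s
      rw [R.chi_act hw, R.chi_coch, R.chi_coch, RD.W_pair hw]
    rw [MonoidHom.comp_apply, e, phi_d, ← e2]
    change m * _ * m⁻¹ = _
    rw [← hm.h_mul, mul_inv_cancel_right]

theorem x_comm {a b : Fin n} (h0 : R.pair a (R.co b) = 0)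
    (h : ∀ g, ¬ (0 < R.pair a (R.co g) ∧ Even (R.pair a (R.co g)) ∧ 0 < R.pair b (R.co g))) (t u : F) :
    S.x a t * S.x b u = S.x b u * S.x a t := by
  have h1 : a ≠ b := by
    rintro rfl
    rw [R.pair_self] at h0; omega
  have h2 : a ≠ R.neg b := by
    rintro rfl
    rw [R.pair_neg, R.pair_self] at h0; omega
  have h3 := S.comm h1 h2 t u
  have h4 : commSet R S.x a b = ∅ := by
    refine Set.eq_empty_of_forall_notMem ?_
    rintro _ ⟨g, v, i, j, hi, hj, hg, rfl⟩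
    apply h g
    rw [hg, map_add, map_add, map_zsmul, map_zsmul, map_zsmul, map_zsmul, h0,
      R.pair_eq_zero_comm h0, R.pair_self, R.pair_self]
    simp only [smul_eq_mul, mul_zero, add_zero, zero_add]
    exact ⟨by omega, even_two.mul_left _, by omega⟩
  rw [h4, Subgroup.closure_empty, Subgroup.mem_bot, mul_inv_eq_one, mul_inv_eq_iff_eq_mul] at h3
  exact h3

theorem X_comm {T T' : Finset (Fin n)} (h : ∀ a ∈ T, ∀ b ∈ T', ∀ t u, S.x a t * S.x b u = S.x b u * S.x a t)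
    {y z : G} (hy : y ∈ S.X T) (hz : z ∈ S.X T') : y * z = z * y := by
  refine S.X_ind (P := fun y => y * z = z * y) (by simp) (fun a ha t g _ ih => ?_) hy
  have : S.x a t * z = z * S.x a t :=
    S.X_ind (P := fun z => S.x a t * z = z * S.x a t) (by simp)
      (fun b hb u g _ ih => by rw [← mul_assoc, h a ha b hb, mul_assoc, ih, mul_assoc]) hz
  rw [mul_assoc, ih, ← mul_assoc, this, mul_assoc]

theorem X_cent {T : Finset (Fin n)} {c : Fin l → Fˣ} (h : ∀ a ∈ T, chi c (R.co a) = 1) {y : G}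
    (hy : y ∈ S.X T) : y * S.h c = S.h c * y := by
  refine S.X_ind (P := fun y => y * S.h c = S.h c * y) (by simp) (fun a ha t g _ ih => ?_) hy
  rw [mul_assoc, ih, ← mul_assoc, ← mul_assoc, h_x, h a ha]; simp

end Sys

end Cfsg.Agent.Chev
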