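import Cfsg.Agent.Lib.Chev.RD

/-! Groups with root subgroups acting on an adjoint module: torus and monomial elements. -/

set_option autoImplicit false

namespace Cfsg.Agent.Chev

open Finset Matrix

abbrev Ix (l n : ℕ) : Type := Fin l ⊕ Fin n

section chi
variable {l : ℕ} {F : Type*} [Field F]

/-- the character of the root lattice with prescribed values on the simple roots -/
def chi (c : Fin l → Fˣ) (v : Fin l → ℤ) : Fˣ := ∏ i, c i ^ v i

theorem chi_add (c : Fin l → Fˣ) (u v : Fin l → ℤ) : chi c (u + v) = chi c u * chi c v := by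
  simp [chi, _root_.zpow_add, Finset.prod_mul_distrib]

theorem chi_zero (c : Fin l → Fˣ) : chi c 0 = 1 := by simp [chi]

theorem chi_neg (c : Fin l → Fˣ) (u : Fin l → ℤ) : chi c (-u) = (chi c u)⁻¹ := by
  simp [chi]

theorem chi_smul (c : Fin l → Fˣ) (k : ℤ) (u : Fin l → ℤ) : chi c (k • u) = chi c u ^ k := by
  simp only [chi, Pi.smul_apply, smul_eq_mul, ← Finset.prod_zpow, ← _root_.zpow_mul, mul_comm k]

theorem chi_mul (c d : Fin l → Fˣ) (u : Fin l → ℤ) : chi (c * d) u = chi c u * chi d u := by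
  simp [chi, mul_zpow, Finset.prod_mul_distrib]

theorem chi_one (u : Fin l → ℤ) : chi (1 : Fin l → Fˣ) u = 1 := by simp [chi]

theorem chi_inv (c : Fin l → Fˣ) (u : Fin l → ℤ) : chi c⁻¹ u = (chi c u)⁻¹ := by
  simp [chi]

theorem chi_single (c : Fin l → Fˣ) (i : Fin l) : chi c (Pi.single i 1) = c i := by
  unfold chi
  rw [Finset.prod_eq_single i]
  · simp
  · intro j _ hj; simp [Pi.single_apply, hj]
  · simp

theorem chi_sum {ι : Type*} (c : Fin l → Fˣ) (s : Finset ι) (f : ι → Fin l → ℤ) :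
    chi c (∑ i ∈ s, f i) = ∏ i ∈ s, chi c (f i) := by
  classical
  induction s using Finset.induction_on with
  | empty => simp [chi_zero]
  | insert a s ha ih => rw [Finset.sum_insert ha, Finset.prod_insert ha, chi_add, ih]

theorem chi_lin (c : Fin l → Fˣ) (L : (Fin l → ℤ) →+ (Fin l → ℤ)) (v : Fin l → ℤ) :
    chi (fun i => chi c (L (Pi.single i 1))) v = chi c (L v) := by
  have hv : v = ∑ i, v i • (Pi.single i 1 : Fin l → ℤ) := by
    funext j; simp [Finset.sum_apply, Pi.single_apply]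
  conv_rhs => rw [hv, map_sum, chi_sum]
  simp only [map_zsmul, chi_smul]
  rfl

end chi

namespace RD
variable {l n : ℕ} (R : RD l n) {F : Type*} [Field F]

def wt : Ix l n → Fin l → ℤ := Sum.elim (fun _ => 0) R.co

def hmat (c : Fin l → Fˣ) : Matrix (Ix l n) (Ix l n) F :=
  Matrix.diagonal fun a => (chi c (R.wt a) : F)

theorem hmat_mul (c d : Fin l → Fˣ) : R.hmat (c * d) = R.hmat c * R.hmat d := by
  simp [hmat, diagonal_mul_diagonal, chi_mul]

theorem hmat_one : R.hmat (1 : Fin l → Fˣ) = 1 := by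
  simp [hmat, chi_one]

/-- action of the Weyl group on characters (a right action) -/
def act (w : Equiv.Perm (Fin n)) (c : Fin l → Fˣ) : Fin l → Fˣ := fun i => chi c (R.co (w (R.sim i)))

theorem chi_act {w : Equiv.Perm (Fin n)} (hw : w ∈ R.W) (c : Fin l → Fˣ) (s : Fin n) :
    chi (R.act w c) (R.co s) = chi c (R.co (w s)) := by
  obtain ⟨L, h1, -⟩ := R.exists_lin hw
  have : R.act w c = fun i => chi c (L (Pi.single i 1)) := by
    funext i; rw [act, h1, co_sim']
  rw [this, chi_lin, h1]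

theorem chi_sim (c : Fin l → Fˣ) (i : Fin l) : chi c (R.co (R.sim i)) = c i := by
  rw [co_sim', chi_single]

theorem chi_ext {c d : Fin l → Fˣ} (h : ∀ s, chi c (R.co s) = chi d (R.co s)) : c = d := by
  funext i
  rw [← R.chi_sim c, ← R.chi_sim d, h]

/-- the cocharacter of a root -/
def coch (r : Fin n) (t : Fˣ) : Fin l → Fˣ := fun j => t ^ R.A r j

theorem chi_coch (r : Fin n) (t : Fˣ) (v : Fin l → ℤ) : chi (R.coch r t) v = t ^ R.pair r v := by
  unfold chi coch
  rw [pair_apply]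
  simp only [← _root_.zpow_mul]
  induction (univ : Finset (Fin l)) using Finset.induction_on with
  | empty => simp
  | insert a s ha ih => rw [Finset.sum_insert ha, Finset.prod_insert ha, _root_.zpow_add, ih]

theorem coch_mul (r : Fin n) (t u : Fˣ) : R.coch r (t * u) = R.coch r t * R.coch r u := by
  funext j; simp [coch, mul_zpow]

end RD

/-- The subgroup in which the commutator of two root elements lies. -/
def commSet {l n : ℕ} (R : RD l n) {F G : Type*} (x : Fin n → F → G) (r s : Fin n) : Set G :=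
  {g | ∃ (a : Fin n) (v : F) (i j : ℕ), 0 < i ∧ 0 < j ∧
    R.co a = (i : ℤ) • R.co r + (j : ℤ) • R.co s ∧ g = x a v}

structure Sys {l n : ℕ} (R : RD l n) (F : Type*) [Field F] (G : Type*) [Group G] where
  ρ : G →* Matrix (Ix l n) (Ix l n) F
  inj : Function.Injective ρ
  x : Fin n → F → G
  gen : Subgroup.closure {g | ∃ r t, g = x r t} = ⊤
  x_add : ∀ r t u, x r (t + u) = x r t * x r u
  tri : ∀ r t a b, (ρ (x r t) - 1) a b ≠ 0 → ∃ k : ℕ, 0 < k ∧ R.wt a = R.wt b + (k : ℤ) • R.co r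
  tor : ∀ c r t, R.hmat c * ρ (x r t) = ρ (x r ((chi c (R.co r) : F) * t)) * R.hmat c
  hv : Fin n → Ix l n → F
  hv_sim : ∀ i, hv (R.sim i) = Pi.single (Sum.inl i) 1
  hv_inr : ∀ r s, hv r (Sum.inr s) = 0
  colneg : ∀ r t, ρ (x r t) *ᵥ Pi.single (Sum.inr (R.neg r)) 1 =
    Pi.single (Sum.inr (R.neg r)) 1 + t • hv r - t ^ 2 • Pi.single (Sum.inr r) 1
  η : Fin l → Fin n → Fˣ
  η_neg : ∀ i s, η i s * η i (R.neg s) = 1
  η_sim : ∀ i, η i (R.sim i) = -1
  nmon : ∀ i s, ρ (x (R.sim i) 1 * x (R.neg (R.sim i)) (-1) * x (R.sim i) 1) *ᵥ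
    Pi.single (Sum.inr s) 1 = (η i s : F) • Pi.single (Sum.inr (R.rs i s)) 1
  nconj : ∀ i s t, (x (R.sim i) 1 * x (R.neg (R.sim i)) (-1) * x (R.sim i) 1) * x s t =
    x (R.rs i s) ((η i s : F) * t) * (x (R.sim i) 1 * x (R.neg (R.sim i)) (-1) * x (R.sim i) 1)
  comm0 : ∀ r s, r ≠ s → r ≠ R.neg s → ∃ w ∈ R.W, ∀ t u,
    x (w r) t * x (w s) u * (x (w r) t)⁻¹ * (x (w s) u)⁻¹ ∈
      Subgroup.closure (commSet R x (w r) (w s))
  mult : ∀ g, R.pos g → (∃ i, g = R.sim i) ∨ ∃ (i : Fin l) (s : Fin n) (k : ℕ), 0 < k ∧ R.pos s ∧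
    R.co g = R.co s + (k : ℤ) • R.co (R.sim i) ∧
    ∃ c : F, c ≠ 0 ∧ ∀ t, ρ (x (R.sim i) t) (Sum.inr g) (Sum.inr s) = c * t ^ k

namespace Sys

variable {l n : ℕ} {R : RD l n} {F : Type*} [Field F] {G : Type*} [Group G] (S : Sys R F G)

theorem x_zero (r : Fin n) : S.x r 0 = 1 := by
  have := S.x_add r 0 0
  rw [add_zero] at this
  exact left_eq_mul.1 this

theorem x_inv (r : Fin n) (t : F) : (S.x r t)⁻¹ = S.x r (-t) := by
  rw [inv_eq_iff_mul_eq_one, ← S.x_add, add_neg_cancel, x_zero]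

/-- `g` is a monomial element with permutation `w` and coefficients `c`. -/
structure Mon (g : G) (w : Equiv.Perm (Fin n)) (c : Fin n → Fˣ) : Prop where
  mem : w ∈ R.W
  col : ∀ s, S.ρ g *ᵥ Pi.single (Sum.inr s) 1 = (c s : F) • Pi.single (Sum.inr (w s)) 1
  conj : ∀ s t, g * S.x s t = S.x (w s) ((c s : F) * t) * g
  neg : ∀ s, c s * c (R.neg s) = 1

variable {S}

theorem Mon.one : S.Mon 1 1 1 :=
  ⟨one_mem _, fun s => by rw [map_one, one_mulVec]; simp, fun s t => by simp, fun s => by simp⟩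

theorem Mon.mul {g g' : G} {w w' : Equiv.Perm (Fin n)} {c c' : Fin n → Fˣ} (h : S.Mon g w c)
    (h' : S.Mon g' w' c') : S.Mon (g * g') (w * w') (fun s => c (w' s) * c' s) := by
  refine ⟨mul_mem h.mem h'.mem, fun s => ?_, fun s t => ?_, fun s => ?_⟩
  · rw [map_mul, ← mulVec_mulVec, h'.col, mulVec_smul, h.col, smul_smul, Units.val_mul, mul_comm]
    rfl
  · rw [mul_assoc, h'.conj, ← mul_assoc, h.conj, mul_assoc, Units.val_mul, mul_assoc]
    rfl
  · rw [RD.W_neg h'.mem, mul_mul_mul_comm, h.neg, h'.neg, mul_one]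

theorem Mon.inv {g : G} {w : Equiv.Perm (Fin n)} {c : Fin n → Fˣ} (h : S.Mon g w c) :
    S.Mon g⁻¹ w⁻¹ (fun s => (c (w⁻¹ s))⁻¹) := by
  have e : ∀ s, w (w⁻¹ s) = s := fun s => by simp
  refine ⟨inv_mem h.mem, fun s => ?_, fun s t => ?_, fun s => ?_⟩
  · have h1 := congrArg (fun v => S.ρ g⁻¹ *ᵥ v) (h.col (w⁻¹ s))
    simp only [mulVec_mulVec, ← map_mul, inv_mul_cancel, map_one, one_mulVec, mulVec_smul, e] at h1
    rw [h1, smul_smul]
    simp
  · have h1 := h.conj (w⁻¹ s) ((((c (w⁻¹ s))⁻¹ : Fˣ) : F) * t)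
    rw [e, ← mul_assoc, Units.mul_inv, one_mul] at h1
    rw [inv_mul_eq_iff_eq_mul, ← mul_assoc, h1, mul_inv_cancel_right]
  · rw [RD.W_neg (inv_mem h.mem), ← mul_inv, h.neg, inv_one]

theorem Mon.conj' {g : G} {w : Equiv.Perm (Fin n)} {c : Fin n → Fˣ} (h : S.Mon g w c) (s : Fin n)
    (t : F) : g * S.x s t * g⁻¹ = S.x (w s) ((c s : F) * t) := by
  rw [h.conj, mul_inv_cancel_right]

theorem Mon.hv {g : G} {w : Equiv.Perm (Fin n)} {c : Fin n → Fˣ} (h : S.Mon g w c) (r : Fin n) :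
    S.ρ g *ᵥ S.hv r = S.hv (w r) := by
  have h1 := congrArg (fun g => S.ρ g *ᵥ Pi.single (Sum.inr (R.neg r)) 1) (h.conj r 1)
  simp only [map_mul, ← mulVec_mulVec] at h1
  rw [S.colneg, h.col, mulVec_smul, RD.W_neg h.mem, S.colneg, mulVec_sub, mulVec_add, mulVec_smul,
    mulVec_smul, h.col, h.col, RD.W_neg h.mem] at h1
  have h2 : (c (R.neg r) : F) * c r = 1 := by rw [mul_comm, ← Units.val_mul, h.neg, Units.val_one]
  rw [smul_sub, smul_add, smul_smul, smul_smul, smul_smul, mul_one, h2, sq, sq, ← mul_assoc, h2]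
    at h1
  simpa using h1

theorem Mon.coll {g : G} {w : Equiv.Perm (Fin n)} {c : Fin n → Fˣ} (h : S.Mon g w c) (i : Fin l) :
    S.ρ g *ᵥ Pi.single (Sum.inl i) 1 = S.hv (w (R.sim i)) := by
  rw [← S.hv_sim, h.hv]

theorem Mon.entry_r {g : G} {w : Equiv.Perm (Fin n)} {c : Fin n → Fˣ} (h : S.Mon g w c)
    (a : Ix l n) (s : Fin n) : S.ρ g a (Sum.inr s) = if a = Sum.inr (w s) then (c s : F) else 0 := by
  have := congrFun (h.col s) a
  rw [mulVec_single_one] at this
  simpa [Pi.single_apply] using this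

theorem Mon.entry_l {g : G} {w : Equiv.Perm (Fin n)} {c : Fin n → Fˣ} (h : S.Mon g w c)
    (a : Ix l n) (i : Fin l) : S.ρ g a (Sum.inl i) = S.hv (w (R.sim i)) a := by
  have := congrFun (h.coll i) a
  rw [mulVec_single_one] at this
  exact this

theorem Mon.mul_right {g : G} {w : Equiv.Perm (Fin n)} {c : Fin n → Fˣ} (h : S.Mon g w c)
    (M : Matrix (Ix l n) (Ix l n) F) (a : Ix l n) (s : Fin n) :
    (M * S.ρ g) a (Sum.inr s) = M a (Sum.inr (w s)) * c s := by
  simp [Matrix.mul_apply, h.entry_r]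

theorem Mon.mul_left {g : G} {w : Equiv.Perm (Fin n)} {c : Fin n → Fˣ} (h : S.Mon g w c)
    (M : Matrix (Ix l n) (Ix l n) F) (b : Ix l n) (s : Fin n) :
    (S.ρ g * M) (Sum.inr (w s)) b = c s * M (Sum.inr s) b := by
  simp [Matrix.mul_apply, h.entry_r, h.entry_l, S.hv_inr]

theorem Mon.hmat {g : G} {w : Equiv.Perm (Fin n)} {c : Fin n → Fˣ} (h : S.Mon g w c)
    (d : Fin l → Fˣ) : R.hmat d * S.ρ g = S.ρ g * R.hmat (R.act w d) := by
  ext a b
  rw [RD.hmat, RD.hmat, diagonal_mul, mul_diagonal]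
  rcases b with i | s
  · rw [h.entry_l]
    rcases a with j | u
    · simp [RD.wt, chi_zero]
    · simp [S.hv_inr]
  · rw [h.entry_r]
    split_ifs with ha
    · subst ha
      simp only [RD.wt, Sum.elim_inr]
      rw [R.chi_act h.mem, mul_comm]
    · simp

variable (S)

/-- the representative of a simple reflection -/
def ns (i : Fin l) (t : Fˣ) : G :=
  S.x (R.sim i) t * S.x (R.neg (R.sim i)) (-(t : F)⁻¹) * S.x (R.sim i) t

theorem mon_ns (i : Fin l) : S.Mon (S.ns i 1) (R.sr i) (S.η i) := by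
  have : S.ns i 1 = S.x (R.sim i) 1 * S.x (R.neg (R.sim i)) (-1) * S.x (R.sim i) 1 := by
    simp [ns]
  rw [this]
  exact ⟨R.sr_mem i, S.nmon i, S.nconj i, S.η_neg i⟩

theorem rho_ns (i : Fin l) (t : Fˣ) :
    S.ρ (S.ns i t) = S.ρ (S.ns i 1) * R.hmat (R.coch (R.sim i) t⁻¹) := by
  let d : Fin l → Fˣ := Pi.mulSingle i t
  have h0 : ∀ v : Fin l → ℤ, chi d v = t ^ v i := by
    intro v
    unfold chi
    rw [Finset.prod_eq_single i]
    · simp [d]
    · intro j _ hj; simp [d, Pi.mulSingle_apply, hj]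
    · simp
  have h1 : chi d (R.co (R.sim i)) = t := by rw [h0, R.co_sim]; simp
  have h2 : chi d (R.co (R.neg (R.sim i))) = t⁻¹ := by rw [R.co_neg', chi_neg, h1]
  have h3 : R.hmat d * S.ρ (S.ns i 1) = S.ρ (S.ns i t) * R.hmat d := by
    simp only [ns, map_mul]
    rw [← mul_assoc, ← mul_assoc, S.tor, mul_assoc _ (R.hmat d), S.tor, mul_assoc, mul_assoc,
      S.tor, h1, h2]
    simp [mul_assoc]
  rw [(S.mon_ns i).hmat] at h3
  have h4 : R.act (R.sr i) d = R.coch (R.sim i) t⁻¹ * d := by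
    apply R.chi_ext
    intro s
    rw [R.chi_act (R.sr_mem i), chi_mul, R.chi_coch, R.co_sr, RD.rlin_apply, sub_eq_add_neg,
      chi_add, chi_neg, chi_smul, h1, mul_comm, _root_.inv_zpow]
  rw [h4, R.hmat_mul, ← mul_assoc] at h3
  have h5 := congrArg (· * R.hmat d⁻¹) h3
  simp only [mul_assoc, ← R.hmat_mul, mul_inv_cancel, R.hmat_one, mul_one] at h5
  exact h5.symm

theorem exists_h (c : Fin l → Fˣ) : ∃ g, S.ρ g = R.hmat c := by
  let K : Submonoid (Fin l → Fˣ) :=
    { carrier := {c | ∃ g, S.ρ g = R.hmat c}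
      one_mem' := ⟨1, by rw [map_one, R.hmat_one]⟩
      mul_mem' := by
        rintro a b ⟨g, hg⟩ ⟨g', hg'⟩
        exact ⟨g * g', by rw [map_mul, hg, hg', R.hmat_mul]⟩ }
  have h1 : ∀ i t, R.coch (R.sim i) t ∈ K := by
    intro i t
    refine ⟨(S.ns i 1)⁻¹ * S.ns i t⁻¹, ?_⟩
    rw [map_mul, S.rho_ns i t⁻¹, ← mul_assoc, ← map_mul, inv_mul_cancel, map_one, one_mul, inv_inv]
  choose m hm using R.unimod
  have h2 : c = ∏ j, ∏ i, R.coch (R.sim i) (c j ^ m j i) := by
    funext k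
    simp only [Finset.prod_apply, RD.coch, ← _root_.zpow_mul]
    have : ∀ j, ∏ i, c j ^ (m j i * R.A (R.sim i) k) = c j ^ (if k = j then 1 else 0 : ℤ) := by
      intro j
      rw [← hm j k]
      induction (univ : Finset (Fin l)) using Finset.induction_on with
      | empty => simp
      | insert a s ha ih => rw [Finset.sum_insert ha, Finset.prod_insert ha, _root_.zpow_add, ih]
    simp only [this]
    rw [Finset.prod_eq_single k]
    · simp
    · intro j _ hj; simp [Ne.symm hj]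
    · simp
  have : c ∈ K := by
    rw [h2]
    exact K.prod_mem fun j _ => K.prod_mem fun i _ => h1 i _
  exact this

/-- torus elements -/
noncomputable def h (c : Fin l → Fˣ) : G := (S.exists_h c).choose

theorem rho_h (c : Fin l → Fˣ) : S.ρ (S.h c) = R.hmat c := (S.exists_h c).choose_spec

theorem h_mul (c d : Fin l → Fˣ) : S.h (c * d) = S.h c * S.h d :=
  S.inj (by rw [map_mul, rho_h, rho_h, rho_h, R.hmat_mul])

theorem h_one : S.h 1 = 1 := S.inj (by rw [rho_h, R.hmat_one, map_one])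

theorem h_inv (c : Fin l → Fˣ) : (S.h c)⁻¹ = S.h c⁻¹ := by
  rw [inv_eq_iff_mul_eq_one, ← h_mul, mul_inv_cancel, h_one]

theorem h_comm (c d : Fin l → Fˣ) : S.h c * S.h d = S.h d * S.h c := by
  rw [← h_mul, ← h_mul, mul_comm]

theorem h_inj {c d : Fin l → Fˣ} (h : S.h c = S.h d) : c = d := by
  have h1 : R.hmat c = R.hmat d := by rw [← S.rho_h, ← S.rho_h, h]
  apply R.chi_ext
  intro s
  have := congrFun (congrFun h1 (Sum.inr s)) (Sum.inr s)
  simp only [RD.hmat, diagonal_apply_eq, RD.wt, Sum.elim_inr] at this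
  exact Units.ext this

theorem mon_h (c : Fin l → Fˣ) : S.Mon (S.h c) 1 (fun s => chi c (R.co s)) := by
  refine ⟨one_mem _, fun s => ?_, fun s t => ?_, fun s => ?_⟩
  · rw [rho_h, RD.hmat]
    funext a
    rw [mulVec_diagonal]
    by_cases ha : a = Sum.inr s
    · subst ha; simp [RD.wt]
    · simp [ha]
  · apply S.inj
    rw [map_mul, map_mul, rho_h, S.tor]; rfl
  · rw [R.co_neg', chi_neg, mul_inv_cancel]

theorem h_x (c : Fin l → Fˣ) (s : Fin n) (t : F) :
    S.h c * S.x s t = S.x s ((chi c (R.co s) : F) * t) * S.h c := (S.mon_h c).conj s t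

variable {S} in
theorem Mon.h_mul {g : G} {w : Equiv.Perm (Fin n)} {c : Fin n → Fˣ} (h : S.Mon g w c)
    (d : Fin l → Fˣ) : S.h d * g = g * S.h (R.act w d) :=
  S.inj (by rw [map_mul, map_mul, rho_h, rho_h, h.hmat])

theorem ns_eq (i : Fin l) (t : Fˣ) : S.ns i t = S.ns i 1 * S.h (R.coch (R.sim i) t⁻¹) :=
  S.inj (by rw [map_mul, rho_h, rho_ns])

theorem act_sr_coch (i : Fin l) (t : Fˣ) :
    R.act (R.sr i) (R.coch (R.sim i) t) = R.coch (R.sim i) t⁻¹ := by
  apply R.chi_ext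
  intro s
  rw [R.chi_act (R.sr_mem i), R.chi_coch, R.chi_coch, R.co_sr, RD.rlin_apply, map_sub, map_zsmul,
    R.pair_self, _root_.inv_zpow, ← _root_.zpow_neg]
  congr 1
  rw [smul_eq_mul]; ring

theorem ns_eq' (i : Fin l) (t : Fˣ) : S.ns i t = S.h (R.coch (R.sim i) t) * S.ns i 1 := by
  rw [(S.mon_ns i).h_mul, act_sr_coch, ← ns_eq]

theorem mon_ns' (i : Fin l) (t : Fˣ) : ∃ c : Fin n → Fˣ, S.Mon (S.ns i t) (R.sr i) c ∧
    c (R.sim i) = -(t * t)⁻¹ := by
  refine ⟨_, by simpa [← S.ns_eq] using (S.mon_ns i).mul (S.mon_h (R.coch (R.sim i) t⁻¹)), ?_⟩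
  simp only [S.η_sim, R.chi_coch, R.pair_self]
  simp [zpow_ofNat, sq]

variable {S} in
theorem Mon.eq_h {g : G} {c : Fin n → Fˣ} (h : S.Mon g 1 c) : g = S.h fun i => c (R.sim i) := by
  set d : Fin l → Fˣ := fun i => c (R.sim i) with hd
  have key : ∀ k : ℕ, ∀ r, R.pos r → R.ht r ≤ k → c r = chi d (R.co r) := by
    intro k
    induction k with
    | zero => intro r h1 h2; unfold RD.pos at h1; omega
    | succ k ih =>
      intro r h1 h2
      rcases S.mult r h1 with ⟨i, rfl⟩ | ⟨i, s, m, hm, hs, hco, e, he, hx⟩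
      · rw [R.chi_sim]
      · have h3 : R.ht r = R.ht s + m := by
          unfold RD.ht
          rw [hco, map_add, map_zsmul]
          have := R.ht_sim i
          unfold RD.ht at this
          rw [this]; simp
        have h4 := ih s hs (by push_cast at h2; omega)
        have h5 := congrArg (fun g => S.ρ g (Sum.inr r) (Sum.inr s)) (h.conj (R.sim i) 1)
        simp only [map_mul] at h5
        have h6 := h.mul_left (S.ρ (S.x (R.sim i) 1)) (Sum.inr s) r
        rw [Equiv.Perm.one_apply] at h6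
        rw [h6, h.mul_right, Equiv.Perm.one_apply, Equiv.Perm.one_apply, hx, hx] at h5
        rw [hco, chi_add, chi_smul, R.chi_sim, ← h4]
        apply Units.ext
        apply mul_left_cancel₀ he
        simp only [one_pow, mul_one] at h5
        rw [mul_comm, h5]
        simp only [hd, zpow_natCast, Units.val_mul, Units.val_pow_eq_pow_val]
        ring
  have key2 : ∀ r, c r = chi d (R.co r) := by
    intro r
    by_cases hr : R.pos r
    · exact key (R.ht r).toNat r hr (by omega)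
    · have h1 := key (R.ht (R.neg r)).toNat _ ((R.pos_neg r).2 hr) (by omega)
      have h2 := h.neg r
      rw [h1, R.co_neg', chi_neg, mul_inv_eq_one] at h2
      exact h2
  apply S.inj
  rw [rho_h]
  ext a b
  rcases b with i | s
  · rw [h.entry_l, Equiv.Perm.one_apply, S.hv_sim, RD.hmat, diagonal_apply, Pi.single_apply]
    split_ifs with ha
    · subst ha; simp [RD.wt, chi_zero]
    · rfl
  · rw [h.entry_r, Equiv.Perm.one_apply, RD.hmat, diagonal_apply]
    split_ifs with ha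
    · subst ha; simp [RD.wt, key2]
    · rfl

theorem exists_mon {w : Equiv.Perm (Fin n)} (hw : w ∈ R.W) : ∃ g c, S.Mon g w c := by
  refine R.W_ind (P := fun w => ∃ g c, S.Mon g w c) ⟨1, 1, Mon.one⟩ ?_ hw
  rintro i w - ⟨g, c, h⟩
  exact ⟨_, _, (S.mon_ns i).mul h⟩

theorem hv_ne (r : Fin n) : ∃ i, S.hv r (Sum.inl i) ≠ 0 := by
  obtain ⟨w, hw, i, rfl⟩ := R.exists_W_sim r
  obtain ⟨g, c, h⟩ := S.exists_mon hw
  by_contra hc
  push Not at hc
  have h1 : S.hv (w (R.sim i)) = 0 := by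
    funext a
    rcases a with j | s
    · exact hc j
    · exact S.hv_inr _ _
  have h2 := h.inv.hv (w (R.sim i))
  rw [h1, mulVec_zero] at h2
  have h3 := congrFun h2 (Sum.inl i)
  simp [S.hv_sim] at h3

theorem comm {r s : Fin n} (h1 : r ≠ s) (h2 : r ≠ R.neg s) (t u : F) :
    S.x r t * S.x s u * (S.x r t)⁻¹ * (S.x s u)⁻¹ ∈ Subgroup.closure (commSet R S.x r s) := by
  obtain ⟨w, hw, h⟩ := S.comm0 r s h1 h2
  obtain ⟨g, c, hg⟩ := S.exists_mon hw
  have h3 := h (c r * t) (c s * u)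
  rw [← hg.conj', ← hg.conj'] at h3
  have h4 : S.x r t * S.x s u * (S.x r t)⁻¹ * (S.x s u)⁻¹ = (MulAut.conj g⁻¹).toMonoidHom
      (g * S.x r t * g⁻¹ * (g * S.x s u * g⁻¹) * (g * S.x r t * g⁻¹)⁻¹ * (g * S.x s u * g⁻¹)⁻¹) := by
    simp [mul_assoc]
  rw [h4]
  have h5 : Subgroup.closure (commSet R S.x (w r) (w s)) ≤
      (Subgroup.closure (commSet R S.x r s)).comap (MulAut.conj g⁻¹).toMonoidHom := by
    rw [Subgroup.closure_le]
    rintro _ ⟨a, v, i, j, hi, hj, ha, rfl⟩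
    apply Subgroup.subset_closure
    refine ⟨w⁻¹ a, _, i, j, hi, hj, ?_, hg.inv.conj' a v⟩
    simpa using RD.W_rel (inv_mem hw) ha
  exact h5 h3

end Sys

end Cfsg.Agent.Chev
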