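import Cfsg.Prelude.Def_Chevalley
import Cfsg.Agent.Lib.Chev.Eval

/-! Fast tables attached to a Chevalley datum; the root datum and the columns of root elements. -/

set_option autoImplicit false

namespace Cfsg.Agent.Chev

open Finset Matrix Cfsg.Lie

structure Tab where
  co : ℕ
  A : ℕ
  cor : ℕ
  B : ℕ
  ca : ℕ
  um : ℕ
  len : ℕ
  neg : ℕ
  sim : ℕ
  rs : ℕ
  eta : ℕ
  K : ℕ
  rows : ℕ

noncomputable def dec (f : ℕ) : ℕ → List (ℕ × ℤ) :=
  Nat.rec (fun _ => []) (fun _ ih c => cond (Nat.beq c 0) []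
    ((Nat.mod c 256, Int.subNatNat (Nat.mod (Nat.div c 256) 8) 4) :: ih (Nat.div c 2048))) f

def zk (l : ℕ) : List (ℕ × ℤ) → ℕ → List Mono
  | [], _ => []
  | p :: L, k => (l + p.1, k, p.2) :: zk l L (k + 1)

noncomputable def mchk (Lf : ℕ → List (ℕ × ℤ)) (f : ℕ) : ℕ → List (ℕ × Array (ℕ × ℤ)) → Bool :=
  Nat.rec (fun _ row => row.isEmpty) (fun _ ih u row =>
    List.rec (motive := fun _ => Bool) (and (Lf u).isEmpty (force (Nat.succ u) fun v => ih v []))
      (fun e row' _ => cond (Nat.beq e.1 u)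
        (and (decide (Lf u = e.2.toList)) (force (Nat.succ u) fun v => ih v row'))
        (and (Lf u).isEmpty (force (Nat.succ u) fun v => ih v (e :: row')))) row) f

theorem mchk_spec (Lf : ℕ → List (ℕ × ℤ)) (f : ℕ) : ∀ (u0 : ℕ) (row : List (ℕ × Array (ℕ × ℤ))),
    mchk Lf f u0 row = true → (∀ e ∈ row, u0 ≤ e.1 ∧ e.1 < u0 + f ∧ Lf e.1 = e.2.toList) ∧
      ∀ u, u0 ≤ u → u < u0 + f →
        (row.filter fun e => e.1 = u).flatMap (fun e => e.2.toList.zipIdx) = (Lf u).zipIdx ∧
        (Lf u = [] ∨ ∃ e ∈ row, e.1 = u) := by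
  induction f with
  | zero =>
    intro u0 row h
    have : row = [] := List.isEmpty_iff.1 h
    subst this
    exact ⟨by simp, fun u h1 h2 => by omega⟩
  | succ f ih =>
    have key : ∀ u0 row, (Lf u0) = [] → mchk Lf f (u0 + 1) row = true →
        (∀ e ∈ row, u0 ≤ e.1 ∧ e.1 < u0 + (f + 1) ∧ Lf e.1 = e.2.toList) ∧
        ∀ u, u0 ≤ u → u < u0 + (f + 1) →
          (row.filter fun e => e.1 = u).flatMap (fun e => e.2.toList.zipIdx) = (Lf u).zipIdx ∧
          (Lf u = [] ∨ ∃ e ∈ row, e.1 = u) := by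
      intro u0 row h1 h2
      obtain ⟨h3, h4⟩ := ih _ _ h2
      refine ⟨fun e he => ⟨by have := h3 e he; omega, by have := h3 e he; omega, (h3 e he).2.2⟩,
        fun u h5 h6 => ?_⟩
      rcases Nat.eq_or_lt_of_le h5 with rfl | h7
      · refine ⟨?_, Or.inl h1⟩
        rw [h1, List.filter_eq_nil_iff.2]
        · rfl
        · intro e he
          have := h3 e he
          simp only [decide_eq_true_eq]; omega
      · exact h4 u h7 (by omega)
    intro u0 row h
    cases row with
    | nil =>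
      have h' : ((Lf u0).isEmpty && force (u0 + 1) fun v => mchk Lf f v []) = true := h
      rw [Bool.and_eq_true, force_eq, List.isEmpty_iff] at h'
      exact key _ _ h'.1 h'.2
    | cons e row =>
      have h' : cond (Nat.beq e.1 u0)
          (decide (Lf u0 = e.2.toList) && force (u0 + 1) fun v => mchk Lf f v row)
          ((Lf u0).isEmpty && force (u0 + 1) fun v => mchk Lf f v (e :: row)) = true := h
      cases hb : Nat.beq e.1 u0
      · rw [hb, cond_false, Bool.and_eq_true, force_eq, List.isEmpty_iff] at h'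
        exact key _ _ h'.1 h'.2
      · rw [hb, cond_true, Bool.and_eq_true, force_eq, decide_eq_true_eq] at h'
        have he : e.1 = u0 := Nat.eq_of_beq_eq_true hb
        obtain ⟨h3, h4⟩ := ih _ _ h'.2
        refine ⟨fun e' he' => ?_, fun u h5 h6 => ?_⟩
        · rcases List.mem_cons.1 he' with rfl | he'
          · exact ⟨he.ge, by omega, by rw [he]; exact h'.1⟩
          · exact ⟨by have := h3 e' he'; omega, by have := h3 e' he'; omega, (h3 e' he').2.2⟩
        · rcases Nat.eq_or_lt_of_le h5 with rfl | h7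
          · refine ⟨?_, Or.inr ⟨e, List.mem_cons_self, he⟩⟩
            rw [List.filter_cons_of_pos (by simpa using he), List.filter_eq_nil_iff.2, h'.1]
            · simp
            · intro e' he'
              have := h3 e' he'
              simp only [decide_eq_true_eq]; omega
          · obtain ⟨h8, h9⟩ := h4 u h7 (by omega)
            refine ⟨?_, h9.imp id fun ⟨e', h10, h11⟩ => ⟨e', List.mem_cons_of_mem _ h10, h11⟩⟩
            rw [List.filter_cons_of_neg (by simp only [decide_eq_true_eq]; omega), h8]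

namespace Tab

variable (T : Tab) (D : ChevalleyDatum)

def fco (r j : ℕ) : ℤ := lookI T.co (Nat.add (Nat.mul D.rank r) j)
def fA (r j : ℕ) : ℤ := lookI T.A (Nat.add (Nat.mul D.rank r) j)
def fcor (r j : ℕ) : ℤ := lookI T.cor (Nat.add (Nat.mul D.rank r) j)
def fB (i j : ℕ) : ℤ := lookI T.B (Nat.add (Nat.mul D.rank i) j)
def fum (i j : ℕ) : ℤ := (look T.um 6 (Nat.add (Nat.mul D.rank i) j) : ℕ)
def fca (i r : ℕ) : ℤ := lookI T.ca (Nat.add (Nat.mul D.nroots i) r)
def flen (r : ℕ) : ℤ := (look T.len 2 r : ℕ)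
def fneg (r : ℕ) : ℕ := look T.neg 8 r
def fsim (i : ℕ) : ℕ := look T.sim 8 i
def frs (i s : ℕ) : ℕ := look T.rs 8 (Nat.add (Nat.mul D.nroots i) s)
def feta (i s : ℕ) : ℤ := cond (Nat.testBit T.eta (Nat.add (Nat.mul D.nroots i) s)) (-1) 1
noncomputable def fpr (r s : ℕ) : ℤ := sumB D.rank fun j => Int.mul (T.fA D r j) (T.fco D s j)
noncomputable def fht (r : ℕ) : ℤ := sumB D.rank fun j => T.fco D r j
noncomputable def fkey (r : ℕ) : ℤ := sumB D.rank fun j => T.fco D r j * 16 ^ (D.rank - j)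
noncomputable def fL (r u : ℕ) : List (ℕ × ℤ) :=
  force (look (look T.rows (Nat.mul T.K D.nroots) r) T.K u) (dec 3)
def row (r : ℕ) : List (ℕ × Array (ℕ × ℤ)) := (D.chain.getD r #[]).toList

noncomputable def col (r b : ℕ) : List Mono :=
  cond (Nat.blt b D.rank) [(b, 0, 1), (D.rank + r, 1, -T.fca D b r)]
    (cond (Nat.blt b (D.rank + D.nroots))
      (cond (Nat.beq (b - D.rank) r) [(b, 0, 1)]
        (cond (Nat.beq (b - D.rank) (T.fneg r))
          ((b, 0, 1) :: (D.rank + r, 2, -1) :: (List.range D.rank).map fun i => (i, 1, T.fcor D r i))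
          ((b, 0, 1) :: zk D.rank (T.fL D r (b - D.rank)) 1))) [])

/-- checks for the root datum -/
noncomputable def chkR : Bool :=
  (allB D.nroots fun r => Nat.blt (T.fneg r) D.nroots &&
    (allB D.rank fun j => ieq (T.fco D (T.fneg r) j) (-T.fco D r j)) &&
    ((allB D.rank fun j => ile 0 (T.fco D r j)) || (allB D.rank fun j => ile (T.fco D r j) 0)) &&
    ilt 0 (T.flen r) &&
    (allB D.rank fun j => ieq (T.flen r * T.fA D r j)
      (sumB D.rank fun i => T.fco D r i * T.fB D i j)) &&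
    ieq (T.fpr D r r) 2 &&
    (Nat.beq (r + 1) D.nroots || ilt (T.fkey D r) (T.fkey D (r + 1)))) &&
  (allB D.rank fun i => Nat.blt (T.fsim i) D.nroots &&
    (allB D.rank fun j => ieq (T.fco D (T.fsim i) j) (cond (Nat.beq j i) 1 0) &&
      ieq (T.fB D i j) (T.fB D j i) &&
      ieq (sumB D.rank fun k => T.fum D i k * T.fA D (T.fsim k) j) (cond (Nat.beq j i) 1 0)) &&
    (allB D.nroots fun s => force (T.frs D i s) fun ws => Nat.blt ws D.nroots &&
      ieq (T.fca D i s) (T.fpr D (T.fsim i) s) &&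
      (allB D.rank fun j => ieq (T.fco D ws j)
        (T.fco D s j - cond (Nat.beq j i) (T.fca D i s) 0)) &&
      (ile (T.fht D s) 0 || Nat.beq s (T.fsim i) || ilt 0 (T.fht D ws))))

/-- the tables agree with the datum -/
noncomputable def chkD : Bool :=
  (allB D.nroots fun r => Nat.beq (D.negIdx.getD r 0) (T.fneg r) &&
    (allB D.rank fun j => ieq ((D.coroot.getD r #[]).getD j 0) (T.fcor D r j))) &&
  (allB D.rank fun i => (allB D.nroots fun r => ieq ((D.cartanSR.getD i #[]).getD r 0) (T.fca D i r)) &&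
    allB D.rank fun j => ieq (T.fcor D (T.fsim i) j) (cond (Nat.beq j i) 1 0))

noncomputable def chkM (r : ℕ) : Bool :=
  force (look T.rows (Nat.mul T.K D.nroots) r) fun c =>
    mchk (fun u => force (look c T.K u) (dec 3)) D.nroots 0 (row D r)

noncomputable def chkW (r : ℕ) : Bool :=
  allL (row D r) fun e => allL (zk D.rank e.2.toList 1) fun q =>
    Nat.ble D.rank q.1 && Nat.blt q.1 (D.rank + D.nroots) && Nat.blt 0 q.2.1 &&
      force (q.1 - D.rank) fun v =>
        allB D.rank fun j => ieq (T.fco D v j) (T.fco D e.1 j + q.2.1 * T.fco D r j)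

theorem cond_beq {α : Type} (a b : ℕ) (x y : α) : cond (Nat.beq a b) x y = if a = b then x else y := by
  cases h : Nat.beq a b
  · rw [cond_false, if_neg (Nat.ne_of_beq_eq_false h)]
  · rw [cond_true, if_pos (Nat.eq_of_beq_eq_true h)]

theorem cond_blt {α : Type} (a b : ℕ) (x y : α) : cond (Nat.blt a b) x y = if a < b then x else y := by
  cases h : Nat.blt a b
  · rw [cond_false, if_neg (by rw [← Nat.blt_eq, h]; simp)]
  · rw [cond_true, if_pos (by rw [← Nat.blt_eq, h])]

variable {T D}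

theorem chkR_root (h : T.chkR D = true) (r : Fin D.nroots) : T.fneg r < D.nroots ∧
    (∀ j : Fin D.rank, T.fco D (T.fneg r) j = -T.fco D r j) ∧
    ((∀ j : Fin D.rank, 0 ≤ T.fco D r j) ∨ ∀ j : Fin D.rank, T.fco D r j ≤ 0) ∧ 0 < T.flen r ∧
    (∀ j : Fin D.rank, T.flen r * T.fA D r j = ∑ i : Fin D.rank, T.fco D r i * T.fB D i j) ∧
    T.fpr D r r = 2 ∧ (r + 1 = D.nroots ∨ T.fkey D r < T.fkey D (r + 1)) := by
  rw [chkR, Bool.and_eq_true] at h
  have h1 := allB_spec h.1 r r.2
  simp only [Bool.and_eq_true, Bool.or_eq_true, Nat.blt_eq, ieq_iff, ilt_iff, Nat.beq_eq] at h1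
  obtain ⟨⟨⟨⟨⟨⟨a1, a2⟩, a3⟩, a4⟩, a5⟩, a6⟩, a7⟩ := h1
  refine ⟨a1, fun j => (ieq_iff _ _).1 (allB_spec a2 j j.2), ?_, a4, fun j => ?_, a6, a7⟩
  · exact a3.imp (fun a j => (ile_iff _ _).1 (allB_spec a j j.2))
      (fun a j => (ile_iff _ _).1 (allB_spec a j j.2))
  · rw [← sumB_eq D.rank fun i => T.fco D r i * T.fB D i j]
    exact (ieq_iff _ _).1 (allB_spec a5 j j.2)

theorem chkR_sim (h : T.chkR D = true) (i : Fin D.rank) : T.fsim i < D.nroots ∧
    (∀ j : Fin D.rank, T.fco D (T.fsim i) j = (if j = i then 1 else 0) ∧ T.fB D i j = T.fB D j i ∧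
      ∑ k : Fin D.rank, T.fum D i k * T.fA D (T.fsim k) j = if j = i then 1 else 0) ∧
    ∀ s : Fin D.nroots, T.frs D i s < D.nroots ∧ T.fca D i s = T.fpr D (T.fsim i) s ∧
      (∀ j : Fin D.rank, T.fco D (T.frs D i s) j = T.fco D s j - if j = i then T.fca D i s else 0) ∧
      (T.fht D s ≤ 0 ∨ (s : ℕ) = T.fsim i ∨ 0 < T.fht D (T.frs D i s)) := by
  rw [chkR, Bool.and_eq_true] at h
  have h1 := allB_spec h.2 i i.2
  simp only [Bool.and_eq_true, Nat.blt_eq] at h1
  obtain ⟨⟨a1, a2⟩, a3⟩ := h1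
  refine ⟨a1, fun j => ?_, fun s => ?_⟩
  · have := allB_spec a2 j j.2
    simp only [Bool.and_eq_true, ieq_iff, cond_beq, sumB_eq, Fin.val_inj] at this
    exact ⟨this.1.1, this.1.2, this.2⟩
  · have := allB_spec a3 s s.2
    simp only [force_eq, Bool.and_eq_true, Bool.or_eq_true, ieq_iff, ile_iff, ilt_iff, Nat.blt_eq,
      Nat.beq_eq] at this
    obtain ⟨⟨⟨b1, b2⟩, b3⟩, b4⟩ := this
    refine ⟨b1, b2, fun j => ?_, by tauto⟩
    have := allB_spec b3 j j.2
    simpa only [ieq_iff, cond_beq, Fin.val_inj] using this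

theorem fpr_eq (r s : ℕ) : T.fpr D r s = ∑ j : Fin D.rank, T.fA D r j * T.fco D s j := sumB_eq _ _

theorem fht_eq (r : ℕ) : T.fht D r = ∑ j : Fin D.rank, T.fco D r j := sumB_eq _ _

/-- The root datum defined by the tables. -/
def rd (h : T.chkR D = true) : RD D.rank D.nroots where
  co r j := T.fco D r j
  neg r := ⟨T.fneg r, (chkR_root h r).1⟩
  sim i := ⟨T.fsim i, (chkR_sim h i).1⟩
  B i j := T.fB D i j
  len r := T.flen r
  A r j := T.fA D r j
  rs i s := ⟨T.frs D i s, ((chkR_sim h i).2.2 s).1⟩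
  co_inj := by
    have h1 : StrictMono fun r : Fin D.nroots => T.fkey D r := by
      intro a b hab
      have : ∀ k, (a : ℕ) + k + 1 < D.nroots → T.fkey D a < T.fkey D (a + k + 1) := by
        intro k
        induction k with
        | zero => intro hk; exact (chkR_root h a).2.2.2.2.2.2.resolve_left (by omega)
        | succ k ih =>
          intro hk
          exact (ih (by omega)).trans
            ((chkR_root h ⟨a + k + 1, by omega⟩).2.2.2.2.2.2.resolve_left (by simp only; omega))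
      obtain ⟨k, hk⟩ := Nat.exists_eq_add_of_lt (show (a : ℕ) < b from hab)
      have h2 := this k (by rw [← hk]; exact b.2)
      rwa [← hk] at h2
    intro a b hab
    apply h1.injective
    simp only [fkey, sumB_eq]
    exact Finset.sum_congr rfl fun j _ => by rw [show T.fco D a j = T.fco D b j from congrFun hab j]
  co_neg r j := (chkR_root h r).2.1 j
  co_sim i j := ((chkR_sim h i).2.1 j).1
  sign r := (chkR_root h r).2.2.1
  B_symm i j := ((chkR_sim h i).2.1 j).2.1
  len_pos r := (chkR_root h r).2.2.2.1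
  len_A r j := (chkR_root h r).2.2.2.2.1 j
  A_self r := by rw [← fpr_eq]; exact (chkR_root h r).2.2.2.2.2.1
  co_rs i s j := by
    have h1 := ((chkR_sim h i).2.2 s).2.2.1 j
    rw [((chkR_sim h i).2.2 s).2.1, fpr_eq] at h1
    exact h1
  rs_pos i r h1 h2 := by
    rw [← fht_eq] at h1 ⊢
    rcases ((chkR_sim h i).2.2 r).2.2.2 with h3 | h3 | h3
    · omega
    · exact absurd (Fin.ext h3) h2
    · exact h3
  unimod j := ⟨fun k => T.fum D j k, fun k => ((chkR_sim h j).2.1 k).2.2⟩

theorem rd_pair (h : T.chkR D = true) (r s : Fin D.nroots) :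
    (rd h).pair r ((rd h).co s) = T.fpr D r s := (fpr_eq _ _).symm

theorem rd_ca (h : T.chkR D = true) (i : Fin D.rank) (s : Fin D.nroots) :
    (rd h).pair ((rd h).sim i) ((rd h).co s) = T.fca D i s := by
  rw [rd_pair, ((chkR_sim h i).2.2 s).2.1]; rfl

theorem rd_ht (h : T.chkR D = true) (r : Fin D.nroots) : (rd h).ht r = T.fht D r := (fht_eq _).symm

theorem chkD_spec (h : T.chkD D = true) : (∀ r : Fin D.nroots, D.negIdx.getD r 0 = T.fneg r ∧
      ∀ j : Fin D.rank, (D.coroot.getD r #[]).getD j 0 = T.fcor D r j) ∧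
    ∀ i : Fin D.rank, (∀ r : Fin D.nroots, (D.cartanSR.getD i #[]).getD r 0 = T.fca D i r) ∧
      ∀ j : Fin D.rank, T.fcor D (T.fsim i) j = if j = i then 1 else 0 := by
  rw [chkD, Bool.and_eq_true] at h
  refine ⟨fun r => ?_, fun i => ?_⟩
  · have := allB_spec h.1 r r.2
    rw [Bool.and_eq_true, Nat.beq_eq] at this
    exact ⟨this.1, fun j => (ieq_iff _ _).1 (allB_spec this.2 j j.2)⟩
  · have := allB_spec h.2 i i.2
    rw [Bool.and_eq_true] at this
    refine ⟨fun r => (ieq_iff _ _).1 (allB_spec this.1 r r.2), fun j => ?_⟩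
    simpa only [ieq_iff, cond_beq, Fin.val_inj] using allB_spec this.2 j j.2

theorem chkM_spec {r : ℕ} (h : T.chkM D r = true) :
    (∀ e ∈ row D r, e.1 < D.nroots ∧ T.fL D r e.1 = e.2.toList) ∧ ∀ u < D.nroots,
      ((row D r).filter fun e => e.1 = u).flatMap (fun e => e.2.toList.zipIdx) = (T.fL D r u).zipIdx ∧
      (T.fL D r u = [] ∨ ∃ e ∈ row D r, e.1 = u) := by
  rw [chkM, force_eq] at h
  obtain ⟨h1, h2⟩ := mchk_spec _ _ _ _ h
  exact ⟨fun e he => ⟨by simpa using (h1 e he).2.1, (h1 e he).2.2⟩,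
    fun u hu => h2 u (Nat.zero_le _) (by simpa using hu)⟩

section cols
variable {F : Type*} [Field F]

theorem evC_nil {l n : ℕ} (t : F) : evC l n t [] = 0 := rfl

theorem evC_cons {l n : ℕ} (t : F) (q : Mono) (c : List Mono) :
    evC l n t (q :: c) = ((q.2.2 : F) * t ^ q.2.1) • bas l n F q.1 + evC l n t c := by simp [evC]

theorem evC_zk_inl {l n : ℕ} (t : F) (L : List (ℕ × ℤ)) (k : ℕ) (i : Fin l) :
    evC l n t (zk l L k) (Sum.inl i) = 0 := by
  induction L generalizing k with
  | nil => rfl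
  | cons p L ih =>
    rw [zk, evC_cons, Pi.add_apply, ih]
    have : ¬ (i : ℕ) = l + p.1 := by omega
    simp [bas, code, this]

theorem evC_zk_inr {l n : ℕ} (t : F) (L : List (ℕ × ℤ)) (k : ℕ) (v : Fin n) :
    evC l n t (zk l L (k + 1)) (Sum.inr v) =
      (((L.zipIdx k).filter (fun q => q.1.1 = (v : ℕ))).map fun q => (q.1.2 : F) * t ^ (q.2 + 1)).sum := by
  induction L generalizing k with
  | nil => rfl
  | cons p L ih =>
    rw [zk, evC_cons, Pi.add_apply, ih, List.zipIdx_cons, List.filter_cons]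
    by_cases h : p.1 = (v : ℕ)
    · simp [bas, code, h]
    · simp [bas, code, h, Ne.symm h]

theorem evC_range {l n : ℕ} (t : F) (f : ℕ → ℤ) (a : Ix l n) :
    evC l n t ((List.range l).map fun i => (i, 1, f i)) a =
      Sum.elim (fun i : Fin l => (f i : F) * t) (fun _ => 0) a := by
  rw [evC, List.map_map, ← List.sum_toFinset _ List.nodup_range, List.toFinset_range,
    Finset.sum_range, Finset.sum_apply]
  simp only [Function.comp, bas_inl, pow_one]
  rcases a with j | s <;> simp [Pi.single_apply]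

theorem col_inl (r : ℕ) (i : Fin D.rank) :
    T.col D r i = [((i : ℕ), 0, 1), (D.rank + r, 1, -T.fca D i r)] := by
  rw [col, cond_blt, if_pos i.2]

theorem col_self (r : Fin D.nroots) : T.col D r (D.rank + r) = [(D.rank + r, 0, 1)] := by
  rw [col, cond_blt, if_neg (by omega), cond_blt, if_pos (by omega), cond_beq, if_pos (by omega)]

theorem col_neg (r u : Fin D.nroots) (h1 : u ≠ r) (h2 : (u : ℕ) = T.fneg r) :
    T.col D r (D.rank + u) = (D.rank + u, 0, 1) :: (D.rank + r, 2, -1) ::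
      (List.range D.rank).map fun i => (i, 1, T.fcor D r i) := by
  have : (u : ℕ) ≠ r := fun h => h1 (Fin.ext h)
  rw [col, cond_blt, if_neg (by omega), cond_blt, if_pos (by omega), cond_beq, if_neg (by omega),
    cond_beq, if_pos (by omega)]

theorem col_gen (r u : Fin D.nroots) (h1 : u ≠ r) (h2 : (u : ℕ) ≠ T.fneg r) :
    T.col D r (D.rank + u) = (D.rank + u, 0, 1) :: zk D.rank (T.fL D r u) 1 := by
  have : (u : ℕ) ≠ r := fun h => h1 (Fin.ext h)
  rw [col, cond_blt, if_neg (by omega), cond_blt, if_pos (by omega), cond_beq, if_neg (by omega),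
    cond_beq, if_neg (by omega), Nat.add_sub_cancel_left]

theorem col_spec (hD : T.chkD D = true) (r : Fin D.nroots) (hM : T.chkM D r = true) (t : F) (b : ℕ) :
    D.xMat F r t *ᵥ bas D.rank D.nroots F b = evC D.rank D.nroots t (T.col D r b) := by
  obtain ⟨h1, h2⟩ := chkD_spec hD
  by_cases hb : b < D.rank
  · obtain ⟨i, rfl⟩ : ∃ i : Fin D.rank, b = i := ⟨⟨b, hb⟩, rfl⟩
    rw [col_inl, evC_cons, evC_cons, evC_nil, bas_inl, bas_inr, mulVec_single_one]
    funext a
    rcases a with j | s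
    · simp [ChevalleyDatum.xMat, Pi.single_apply]
    · simp only [ChevalleyDatum.xMat, col_apply, of_apply, (h2 i).1 r]
      by_cases a1 : s = r <;> simp [a1]
  by_cases hb' : b < D.rank + D.nroots
  swap
  · rw [bas_ge (by omega), mulVec_zero, col, cond_blt, if_neg hb, cond_blt, if_neg hb', evC_nil]
  obtain ⟨u, rfl⟩ : ∃ u : Fin D.nroots, b = D.rank + u := ⟨⟨b - D.rank, by omega⟩, by simp; omega⟩
  rw [bas_inr, mulVec_single_one]
  by_cases hu : u = r
  · subst hu
    rw [col_self, evC_cons, evC_nil, bas_inr]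
    funext a
    rcases a with j | s <;> simp [ChevalleyDatum.xMat, Pi.single_apply]
  by_cases hu' : (u : ℕ) = T.fneg r
  · rw [col_neg r u hu hu', evC_cons, evC_cons, bas_inr, bas_inr]
    funext a
    rw [Pi.add_apply, Pi.add_apply, evC_range]
    rcases a with j | s
    · simp only [ChevalleyDatum.xMat, col_apply, of_apply, (h1 r).1, (h1 r).2, if_neg hu, if_pos hu']
      simp
    · simp only [ChevalleyDatum.xMat, col_apply, of_apply, (h1 r).1, if_neg hu, if_pos hu']
      by_cases a1 : s = u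
      · subst a1; simp [hu]
      · by_cases a2 : s = r
        · subst a2; simp [a1]
        · simp [a1, a2]
  · rw [col_gen r u hu hu', evC_cons, bas_inr]
    funext a
    rw [Pi.add_apply]
    rcases a with j | s
    · rw [evC_zk_inl]
      simp only [ChevalleyDatum.xMat, col_apply, of_apply, (h1 r).1, if_neg hu, if_neg hu']
      simp
    · rw [evC_zk_inr, ← ((chkM_spec hM).2 u u.2).1]
      simp only [ChevalleyDatum.xMat, col_apply, of_apply, (h1 r).1, if_neg hu, if_neg hu',
        ChevalleyDatum.chainCoeff, List.filter_flatMap, List.map_flatMap, List.map_map, row]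
      simp [Pi.single_apply, Function.comp_def]

end cols

end Tab

end Cfsg.Agent.Chev
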