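import Cfsg.Agent.Lib.Chev.Sys

/-! Unipotent subgroups attached to closed sets of positive roots. -/

set_option autoImplicit false

namespace Cfsg.Agent.Chev

open Finset Matrix

namespace RD
variable {l n : ℕ} (R : RD l n)

def Closed (T : Finset (Fin n)) : Prop :=
  ∀ (g r s : Fin n) (i j : ℕ), r ∈ T → s ∈ T → 0 < i → 0 < j →
    R.co g = (i : ℤ) • R.co r + (j : ℤ) • R.co s → g ∈ T

variable {R}

theorem ht_rel {g r s : Fin n} {i j : ℤ} (h : R.co g = i • R.co r + j • R.co s) :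
    R.ht g = i * R.ht r + j * R.ht s := by
  unfold ht
  rw [h, map_add, map_zsmul, map_zsmul]; rfl

theorem ht_lt_rel {g r s : Fin n} {i j : ℕ} (hr : R.pos r) (hs : R.pos s) (hi : 0 < i) (hj : 0 < j)
    (h : R.co g = (i : ℤ) • R.co r + (j : ℤ) • R.co s) : R.ht r < R.ht g := by
  rw [ht_rel h]
  unfold pos at hr hs
  have h1 : (1 : ℤ) ≤ i := by exact_mod_cast hi
  have h2 : (1 : ℤ) ≤ j := by exact_mod_cast hj
  nlinarith

theorem pos_rel {g r s : Fin n} {i j : ℕ} (hr : R.pos r) (hs : R.pos s) (hi : 0 < i) (hj : 0 < j)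
    (h : R.co g = (i : ℤ) • R.co r + (j : ℤ) • R.co s) : R.pos g :=
  lt_trans hr (ht_lt_rel hr hs hi hj h)

theorem npos_rel {g r s : Fin n} {i j : ℕ} (hr : ¬ R.pos r) (hs : ¬ R.pos s) (hi : 0 < i)
    (hj : 0 < j) (h : R.co g = (i : ℤ) • R.co r + (j : ℤ) • R.co s) : ¬ R.pos g := by
  rw [← pos_neg] at hr hs ⊢
  refine pos_rel hr hs hi hj ?_
  rw [co_neg', co_neg', co_neg', h, smul_neg, smul_neg, neg_add]

theorem Closed.erase {T : Finset (Fin n)} (hc : R.Closed T) (hp : ∀ r ∈ T, R.pos r) {a : Fin n}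
    (hmin : ∀ r ∈ T, R.ht a ≤ R.ht r) : R.Closed (T.erase a) := by
  intro g r s i j hr hs hi hj h
  have hr' := mem_of_mem_erase hr
  have hs' := mem_of_mem_erase hs
  refine mem_erase.2 ⟨fun hg => ?_, hc g r s i j hr' hs' hi hj h⟩
  have h1 := ht_lt_rel (hp r hr') (hp s hs') hi hj h
  have h2 := hmin r hr'
  rw [hg] at h1
  omega

variable (R)

def posF : Finset (Fin n) := univ.filter R.pos
def negF : Finset (Fin n) := univ.filter fun r => ¬ R.pos r
def invF (w : Equiv.Perm (Fin n)) : Finset (Fin n) := univ.filter fun r => R.pos r ∧ ¬ R.pos (w r)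
def ninvF (w : Equiv.Perm (Fin n)) : Finset (Fin n) := univ.filter fun r => R.pos r ∧ R.pos (w r)

@[simp] theorem mem_posF (r : Fin n) : r ∈ R.posF ↔ R.pos r := by simp [posF]
@[simp] theorem mem_negF (r : Fin n) : r ∈ R.negF ↔ ¬ R.pos r := by simp [negF]
@[simp] theorem mem_invF (w : Equiv.Perm (Fin n)) (r : Fin n) :
    r ∈ R.invF w ↔ R.pos r ∧ ¬ R.pos (w r) := by simp [invF]
@[simp] theorem mem_ninvF (w : Equiv.Perm (Fin n)) (r : Fin n) :
    r ∈ R.ninvF w ↔ R.pos r ∧ R.pos (w r) := by simp [ninvF]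

theorem closed_posF : R.Closed R.posF := fun g r s i j hr hs hi hj h => by
  rw [mem_posF] at *
  exact pos_rel hr hs hi hj h

theorem closed_invF {w : Equiv.Perm (Fin n)} (hw : w ∈ R.W) : R.Closed (R.invF w) :=
  fun g r s i j hr hs hi hj h => by
  rw [mem_invF] at *
  exact ⟨pos_rel hr.1 hs.1 hi hj h, npos_rel hr.2 hs.2 hi hj (W_rel hw h)⟩

theorem closed_ninvF {w : Equiv.Perm (Fin n)} (hw : w ∈ R.W) : R.Closed (R.ninvF w) :=
  fun g r s i j hr hs hi hj h => by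
  rw [mem_ninvF] at *
  exact ⟨pos_rel hr.1 hs.1 hi hj h, pos_rel hr.2 hs.2 hi hj (W_rel hw h)⟩

end RD

namespace Sys

variable {l n : ℕ} {R : RD l n} {F : Type*} [Field F] {G : Type*} [Group G] (S : Sys R F G)

def X (T : Finset (Fin n)) : Subgroup G := Subgroup.closure {g | ∃ r ∈ T, ∃ t, g = S.x r t}

theorem x_mem {T : Finset (Fin n)} {r : Fin n} (h : r ∈ T) (t : F) : S.x r t ∈ S.X T :=
  Subgroup.subset_closure ⟨r, h, t, rfl⟩

theorem X_ind {T : Finset (Fin n)} {P : G → Prop} (h1 : P 1)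
    (hm : ∀ r ∈ T, ∀ t g, g ∈ S.X T → P g → P (S.x r t * g)) {g : G} (hg : g ∈ S.X T) : P g := by
  induction hg using Subgroup.closure_induction_left with
  | one => exact h1
  | mul_left x hx y hy ih => obtain ⟨r, hr, t, rfl⟩ := hx; exact hm r hr t y hy ih
  | inv_mul_cancel x hx y hy ih =>
    obtain ⟨r, hr, t, rfl⟩ := hx
    rw [x_inv]; exact hm r hr _ y hy ih

theorem X_mono {T T' : Finset (Fin n)} (h : T ⊆ T') : S.X T ≤ S.X T' :=
  Subgroup.closure_mono fun _ ⟨r, hr, t, e⟩ => ⟨r, h hr, t, e⟩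

theorem X_tri {T : Finset (Fin n)} (P : (Fin l → ℤ) → Prop) (hP : ∀ u v, P u → P v → P (u + v))
    (hT : ∀ r ∈ T, P (R.co r)) {g : G} (hg : g ∈ S.X T) :
    ∀ a b, (S.ρ g - 1) a b ≠ 0 → P (R.wt a - R.wt b) := by
  refine S.X_ind (P := fun g => ∀ a b, (S.ρ g - 1) a b ≠ 0 → P (R.wt a - R.wt b)) ?_ ?_ hg
  · intro a b h; simp at h
  · intro r hr t g _ ih
    have h1 : ∀ a b, (S.ρ (S.x r t) - 1) a b ≠ 0 → P (R.wt a - R.wt b) := by
      intro a b h
      obtain ⟨k, hk, e⟩ := S.tri r t a b h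
      rw [e, add_sub_cancel_left]
      obtain ⟨k, rfl⟩ := Nat.exists_eq_add_one_of_ne_zero hk.ne'
      clear e hk
      induction k with
      | zero => simpa using hT r hr
      | succ k ih2 =>
        rw [Nat.cast_add, add_smul, Nat.cast_one, one_smul]
        exact hP _ _ ih2 (hT r hr)
    intro a b h
    have e : S.ρ (S.x r t * g) - 1 = (S.ρ (S.x r t) - 1) + (S.ρ g - 1) +
        (S.ρ (S.x r t) - 1) * (S.ρ g - 1) := by
      rw [map_mul]; noncomm_ring
    rw [e, Matrix.add_apply, Matrix.add_apply] at h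
    by_cases h2 : (S.ρ (S.x r t) - 1) a b = 0
    · by_cases h3 : (S.ρ g - 1) a b = 0
      · rw [h2, h3, zero_add, zero_add, Matrix.mul_apply] at h
        obtain ⟨c, -, hc⟩ := Finset.exists_ne_zero_of_sum_ne_zero h
        have := hP _ _ (h1 a c (left_ne_zero_of_mul hc)) (ih c b (right_ne_zero_of_mul hc))
        rwa [sub_add_sub_cancel] at this
      · exact ih a b h3
    · exact h1 a b h2

theorem U_tri {g : G} (hg : g ∈ S.X R.posF) (a b : Ix l n) (h : (S.ρ g - 1) a b ≠ 0) :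
    0 < RD.htv l (R.wt a - R.wt b) :=
  S.X_tri (fun v => 0 < RD.htv l v) (fun u v h1 h2 => by rw [map_add]; omega)
    (fun r hr => (R.mem_posF r).1 hr) hg a b h

theorem V_tri {g : G} (hg : g ∈ S.X R.negF) (a b : Ix l n) (h : (S.ρ g - 1) a b ≠ 0) :
    RD.htv l (R.wt a - R.wt b) < 0 :=
  S.X_tri (fun v => RD.htv l v < 0) (fun u v h1 h2 => by rw [map_add]; omega)
    (fun r hr => (R.not_pos_iff r).1 ((R.mem_negF r).1 hr)) hg a b h

theorem U_diag {g : G} (hg : g ∈ S.X R.posF) (a : Ix l n) : S.ρ g a a = 1 := by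
  by_contra h
  have := S.U_tri hg a a (by simpa [sub_eq_zero] using h)
  simp at this

theorem V_diag {g : G} (hg : g ∈ S.X R.negF) (a : Ix l n) : S.ρ g a a = 1 := by
  by_contra h
  have := S.V_tri hg a a (by simpa [sub_eq_zero] using h)
  simp at this

variable {S} in
theorem Mon.conj_X {g : G} {w : Equiv.Perm (Fin n)} {c : Fin n → Fˣ} (h : S.Mon g w c)
    {T T' : Finset (Fin n)} (hT : ∀ r ∈ T, w r ∈ T') {z : G} (hz : z ∈ S.X T) :
    g * z * g⁻¹ ∈ S.X T' := by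
  refine S.X_ind (P := fun z => g * z * g⁻¹ ∈ S.X T') (by simp) ?_ hz
  intro r hr t z _ ih
  have : g * (S.x r t * z) * g⁻¹ = g * S.x r t * g⁻¹ * (g * z * g⁻¹) := by group
  rw [this, h.conj']
  exact mul_mem (S.x_mem (hT r hr) _) ih

theorem h_conj_X (c : Fin l → Fˣ) {T : Finset (Fin n)} {z : G} (hz : z ∈ S.X T) :
    S.h c * z * (S.h c)⁻¹ ∈ S.X T := (S.mon_h c).conj_X (fun _ hr => hr) hz

theorem h_conj_X' (c : Fin l → Fˣ) {T : Finset (Fin n)} {z : G} (hz : z ∈ S.X T) :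
    (S.h c)⁻¹ * z * S.h c ∈ S.X T := by
  have := S.h_conj_X c⁻¹ hz
  rwa [← S.h_inv, inv_inv] at this

/-- `B ∩ V = 1` -/
theorem B_inf_V {u v : G} (hu : u ∈ S.X R.posF) (hv : v ∈ S.X R.negF) {c : Fin l → Fˣ}
    (h : u * S.h c = v) : v = 1 := by
  apply S.inj
  rw [map_one]
  ext a b
  by_cases hab : a = b
  · subst hab; rw [S.V_diag hv, Matrix.one_apply_eq]
  · rw [Matrix.one_apply_ne hab]
    by_contra hne
    have h1 := S.V_tri hv a b (by simpa [Matrix.one_apply_ne hab] using hne)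
    rw [← h, map_mul, rho_h, RD.hmat, mul_diagonal] at hne
    have h2 := S.U_tri hu a b (by simpa [Matrix.one_apply_ne hab] using left_ne_zero_of_mul hne)
    omega

theorem U_inf_H {u : G} (hu : u ∈ S.X R.posF) {c : Fin l → Fˣ} (h : u = S.h c) : c = 1 := by
  apply R.chi_ext
  intro s
  have h1 := S.U_diag hu (Sum.inr s)
  rw [h, rho_h, RD.hmat, diagonal_apply_eq] at h1
  rw [chi_one]
  exact Units.ext h1

theorem B_unique {u u' : G} (hu : u ∈ S.X R.posF) (hu' : u' ∈ S.X R.posF) {c c' : Fin l → Fˣ}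
    (h : u * S.h c = u' * S.h c') : u = u' ∧ c = c' := by
  have h1 : u'⁻¹ * u = S.h (c' * c⁻¹) := by
    rw [h_mul, ← h_inv, inv_mul_eq_iff_eq_mul, ← mul_assoc, ← h, mul_inv_cancel_right]
  have h2 := S.U_inf_H (mul_mem (inv_mem hu') hu) h1
  rw [h2, h_one, inv_mul_eq_one] at h1
  exact ⟨h1.symm, (mul_inv_eq_one.1 h2).symm⟩

section dec
variable {T : Finset (Fin n)} {a : Fin n}

theorem norm_erase (hc : R.Closed T) (hp : ∀ r ∈ T, R.pos r) (ha : a ∈ T) (t : F) {z : G}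
    (hz : z ∈ S.X (T.erase a)) : S.x a t * z * (S.x a t)⁻¹ ∈ S.X (T.erase a) := by
  refine S.X_ind (P := fun z => S.x a t * z * (S.x a t)⁻¹ ∈ S.X (T.erase a)) (by simp) ?_ hz
  intro r hr u z _ ih
  have e : S.x a t * (S.x r u * z) * (S.x a t)⁻¹ =
      S.x a t * S.x r u * (S.x a t)⁻¹ * (S.x r u)⁻¹ * S.x r u * (S.x a t * z * (S.x a t)⁻¹) := by
    group
  rw [e]
  refine mul_mem (mul_mem ?_ (S.x_mem hr u)) ih
  obtain ⟨hne, hr'⟩ := mem_erase.1 hr
  have h1 : a ≠ R.neg r := by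
    intro h
    have := hp a ha
    rw [h, R.pos_neg] at this
    exact this (hp r hr')
  refine (Subgroup.closure_le _).2 ?_ (S.comm hne.symm h1 t u)
  rintro _ ⟨g, v, i, j, hi, hj, hg, rfl⟩
  refine S.x_mem (mem_erase.2 ⟨fun h2 => ?_, hc g a r i j ha hr' hi hj hg⟩) v
  have h3 := RD.ht_lt_rel (hp _ ha) (hp r hr') hi hj hg
  rw [h2] at h3
  exact lt_irrefl _ h3

theorem dec_exists (hc : R.Closed T) (hp : ∀ r ∈ T, R.pos r) (ha : a ∈ T) {g : G}
    (hg : g ∈ S.X T) : ∃ t, ∃ z ∈ S.X (T.erase a), g = S.x a t * z := by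
  refine S.X_ind (P := fun g => ∃ t, ∃ z ∈ S.X (T.erase a), g = S.x a t * z)
    ⟨0, 1, one_mem _, by rw [x_zero, mul_one]⟩ ?_ hg
  rintro r hr u _ - ⟨t, z, hz, rfl⟩
  by_cases h : r = a
  · subst h
    exact ⟨u + t, z, hz, by rw [S.x_add, mul_assoc]⟩
  · refine ⟨t, _, mul_mem (S.norm_erase hc hp ha (-t) (S.x_mem (mem_erase.2 ⟨h, hr⟩) u)) hz, ?_⟩
    rw [← S.x_inv]; group

theorem dec_zero (hp : ∀ r ∈ T, R.pos r) (ha : R.pos a) (hmin : ∀ r ∈ T, R.ht a ≤ R.ht r) {t : F}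
    (h : S.x a t ∈ S.X (T.erase a)) : t = 0 := by
  obtain ⟨i, hi⟩ := S.hv_ne a
  by_contra ht
  have h1 := S.X_tri (fun v => R.ht a ≤ RD.htv l v ∧ v ≠ R.co a) ?_ ?_ h (Sum.inl i)
    (Sum.inr (R.neg a)) ?_
  · apply h1.2
    simp [RD.wt, R.co_neg']
  · rintro u v ⟨h1, -⟩ ⟨h2, -⟩
    unfold RD.pos at ha
    refine ⟨by rw [map_add]; omega, fun h3 => ?_⟩
    have : RD.htv l (u + v) = R.ht a := by rw [h3]; rfl
    rw [map_add] at this
    omega
  · intro r hr
    exact ⟨hmin r (mem_of_mem_erase hr), fun h2 => (mem_erase.1 hr).1 (R.co_inj h2)⟩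
  · have h2 := congrFun (S.colneg a t) (Sum.inl i)
    rw [mulVec_single_one] at h2
    simp only [Matrix.col_apply] at h2
    simp only [Matrix.sub_apply, h2]
    simp [ht, hi]

theorem dec_unique (hp : ∀ r ∈ T, R.pos r) (ha : R.pos a) (hmin : ∀ r ∈ T, R.ht a ≤ R.ht r)
    {t t' : F} {z z' : G} (hz : z ∈ S.X (T.erase a)) (hz' : z' ∈ S.X (T.erase a))
    (h : S.x a t * z = S.x a t' * z') : t = t' ∧ z = z' := by
  have h1 : S.x a (-t' + t) = z' * z⁻¹ := by
    rw [S.x_add, ← S.x_inv, inv_mul_eq_iff_eq_mul, ← mul_assoc, ← h, mul_inv_cancel_right]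
  have h2 := S.dec_zero hp ha hmin (h1 ▸ mul_mem hz' (inv_mem hz))
  have h3 : t = t' := by linear_combination h2
  subst h3
  exact ⟨rfl, mul_left_cancel h⟩

end dec

theorem x_inj (r : Fin n) {t : F} (h : S.x r t = 1) : t = 0 := by
  obtain ⟨i, hi⟩ := S.hv_ne r
  have h2 := congrFun (S.colneg r t) (Sum.inl i)
  rw [h, map_one, one_mulVec] at h2
  simpa [hi] using h2

open Classical in
theorem card_fix [Fintype F] (c : Fin l → Fˣ) (T : Finset (Fin n)) : R.Closed T →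
    (∀ r ∈ T, R.pos r) → Nat.card {g // g ∈ S.X T ∧ S.h c * g = g * S.h c} =
      Fintype.card F ^ (T.filter fun r => chi c (R.co r) = 1).card := by
  induction T using Finset.strongInduction with
  | H T ih =>
    intro hc hp
    rcases T.eq_empty_or_nonempty with rfl | hne
    · have : S.X ∅ = ⊥ := by simp [X]
      simp only [this, Subgroup.mem_bot, filter_empty, card_empty, pow_zero]
      rw [Nat.card_eq_one_iff_exists]
      exact ⟨⟨1, rfl, by simp⟩, fun y => Subtype.ext y.2.1⟩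
    obtain ⟨a, ha, hmin⟩ := T.exists_min_image R.ht hne
    have ih' := ih (T.erase a) (erase_ssubset ha) (hc.erase hp hmin)
      (fun r hr => hp r (mem_of_mem_erase hr))
    let f : {t : F // (chi c (R.co a) : F) * t = t} ×
        {g // g ∈ S.X (T.erase a) ∧ S.h c * g = g * S.h c} →
        {g // g ∈ S.X T ∧ S.h c * g = g * S.h c} := fun p =>
      ⟨S.x a p.1.1 * p.2.1, mul_mem (S.x_mem ha _) (S.X_mono (erase_subset _ _) p.2.2.1), by
        rw [← mul_assoc, h_x, p.1.2, mul_assoc, p.2.2.2, mul_assoc]⟩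
    have hf : Function.Bijective f := by
      constructor
      · rintro ⟨⟨t, ht⟩, z, hz⟩ ⟨⟨t', ht'⟩, z', hz'⟩ h
        obtain ⟨rfl, rfl⟩ := S.dec_unique hp (hp a ha) hmin hz.1 hz'.1 (congrArg Subtype.val h)
        rfl
      · rintro ⟨g, hg, hg'⟩
        obtain ⟨t, z, hz, rfl⟩ := S.dec_exists hc hp ha hg
        have h1 : S.x a ((chi c (R.co a) : F) * t) * (S.h c * z * (S.h c)⁻¹) = S.x a t * z := by
          rw [← mul_assoc, ← mul_assoc, ← h_x, mul_assoc (S.h c), hg', mul_inv_cancel_right]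
        obtain ⟨h2, h3⟩ := S.dec_unique hp (hp a ha) hmin (S.h_conj_X c hz) hz h1
        exact ⟨⟨⟨t, h2⟩, z, hz, mul_inv_eq_iff_eq_mul.1 h3⟩, rfl⟩
    rw [← Nat.card_eq_of_bijective f hf, Nat.card_prod, ih']
    by_cases h1 : chi c (R.co a) = 1
    · have h2 : Nat.card {t : F // (chi c (R.co a) : F) * t = t} = Fintype.card F := by
        rw [← Nat.card_eq_fintype_card]
        exact Nat.card_congr (Equiv.subtypeUnivEquiv fun t => by rw [h1]; simp)
      rw [h2, ← _root_.pow_succ']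
      congr 1
      rw [filter_erase, card_erase_add_one (mem_filter.2 ⟨ha, h1⟩)]
    · have h2 : Nat.card {t : F // (chi c (R.co a) : F) * t = t} = 1 := by
        rw [Nat.card_eq_one_iff_exists]
        refine ⟨⟨0, by simp⟩, fun y => Subtype.ext ?_⟩
        have h3 : ((chi c (R.co a) : F) - 1) * y.1 = 0 := by rw [sub_mul, y.2, one_mul, sub_self]
        rcases mul_eq_zero.1 h3 with h4 | h4
        · exact absurd (Units.ext (sub_eq_zero.1 h4)) h1
        · exact h4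
      rw [h2, one_mul, filter_erase, erase_eq_of_notMem]
      simp [h1]

theorem card_X [Fintype F] {T : Finset (Fin n)} (hc : R.Closed T) (hp : ∀ r ∈ T, R.pos r) :
    Nat.card (S.X T) = Fintype.card F ^ T.card := by
  have := S.card_fix 1 T hc hp
  simp only [h_one, one_mul, mul_one, and_true, chi_one, filter_true] at this
  exact this

theorem U_split [Fintype F] {w : Equiv.Perm (Fin n)} (hw : w ∈ R.W) {u : G} (hu : u ∈ S.X R.posF) :
    ∃ a ∈ S.X (R.ninvF w), ∃ b ∈ S.X (R.invF w), u = a * b := by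
  obtain ⟨g, c, hg⟩ := S.exists_mon hw
  have s1 : R.ninvF w ⊆ R.posF := fun r hr => by simp at hr ⊢; exact hr.1
  have s2 : R.invF w ⊆ R.posF := fun r hr => by simp at hr ⊢; exact hr.1
  let f : S.X (R.ninvF w) × S.X (R.invF w) → S.X R.posF := fun p =>
    ⟨p.1.1 * p.2.1, mul_mem (S.X_mono s1 p.1.2) (S.X_mono s2 p.2.2)⟩
  have hq : 0 < Fintype.card F := Fintype.card_pos
  have c0 := S.card_X R.closed_posF (fun r hr => (R.mem_posF r).1 hr)
  haveI : Finite (S.X R.posF) := Nat.finite_of_card_ne_zero (by rw [c0]; positivity)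
  have hinj : Function.Injective f := by
    rintro ⟨⟨a, ha⟩, b, hb⟩ ⟨⟨a', ha'⟩, b', hb'⟩ h
    have h0 : a * b = a' * b' := congrArg Subtype.val h
    have h1 : a'⁻¹ * a = b' * b⁻¹ := by
      rw [inv_mul_eq_iff_eq_mul, ← mul_assoc, ← h0, mul_inv_cancel_right]
    have h2 : g * (a'⁻¹ * a) * g⁻¹ ∈ S.X R.posF :=
      hg.conj_X (fun r hr => by simp at hr ⊢; exact hr.2) (mul_mem (inv_mem ha') ha)
    have h3 : g * (b' * b⁻¹) * g⁻¹ ∈ S.X R.negF :=
      hg.conj_X (fun r hr => by simp at hr ⊢; exact hr.2) (mul_mem hb' (inv_mem hb))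
    have h4 := S.B_inf_V h2 h3 (c := 1) (by rw [h_one, mul_one, h1])
    have h5 : b' * b⁻¹ = 1 := by simpa using h4
    rw [h5, inv_mul_eq_one] at h1
    obtain rfl := h1
    obtain rfl := mul_inv_eq_one.1 h5
    rfl
  have hb : Function.Bijective f := by
    rw [Nat.bijective_iff_injective_and_card]
    refine ⟨hinj, ?_⟩
    rw [Nat.card_prod, c0, S.card_X (R.closed_ninvF hw) (fun r hr => ((R.mem_ninvF w r).1 hr).1),
      S.card_X (R.closed_invF hw) (fun r hr => ((R.mem_invF w r).1 hr).1), ← pow_add]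
    congr 1
    rw [← Finset.card_filter_add_card_filter_not (s := R.posF) (p := fun r => R.pos (w r))]
    congr 1 <;> congr 1 <;> ext r <;> simp
  obtain ⟨⟨⟨a, ha⟩, b, hb⟩, h⟩ := hb.2 ⟨u, hu⟩
  exact ⟨a, ha, b, hb, (congrArg Subtype.val h).symm⟩

end Sys

end Cfsg.Agent.Chev
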